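import Cfsg.Agent.PQ.Wo.Th

/-!
# The Weil kernel, `q` odd : orthogonal sums
-/

set_option autoImplicit false
set_option linter.unusedSectionVars false

namespace Cfsg.Agent.PQ.Wo

open TensorProduct Module Cfsg.Agent.PQ.Wl
open LinearMap (BilinForm trace)

variable {F : Type} [Field F] {V W V₁ W₁ V₂ W₂ : Type} [AddCommGroup V] [Module F V] [AddCommGroup W] [Module F W]
  [AddCommGroup V₁] [Module F V₁] [AddCommGroup W₁] [Module F W₁] [AddCommGroup V₂] [Module F V₂] [AddCommGroup W₂]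
  [Module F W₂] {ψ : AddChar F ℂ} {ω : BilinForm F V} {Q : QuadraticForm F W} {γ γ₁ γ₂ : ℂ} {ω₁ : BilinForm F V₁}
  {Q₁ : QuadraticForm F W₁} {ω₂ : BilinForm F V₂} {Q₂ : QuadraticForm F W₂}
  {S S₁ S₂ : Type} [AddCommGroup S] [Module ℂ S] [AddCommGroup S₁] [Module ℂ S₁] [AddCommGroup S₂] [Module ℂ S₂]

/-- **the setting is available for every quadratic space** -/
theorem exists_cx [Finite F] [Finite V] [Finite W] (hψ : ψ ≠ 1) (h2 : (2 : F) ≠ 0)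
    (nd : ∀ w, (∀ w', Q.polarBilin w w' = 0) → w = 0) (alt : ∀ v, ω v v = 0) (ndV : ∀ v, (∀ v', ω v v' = 0) → v = 0) :
    Cx ψ ω Q (Real.sqrt (Nat.card W)) :=
  ⟨‹_›, ‹_›, ‹_›, hψ, alt, ndV, nd, h2, by
    rw [← Complex.ofReal_pow, Real.sq_sqrt (Nat.cast_nonneg _), Complex.ofReal_natCast]⟩

theorem Cx.mix (x : Cx ψ ω Q γ) (x₁ : Cx ψ ω₁ Q₁ γ₁) : Cx ψ ω₁ Q γ := { x with fV := x₁.fV, alt := x₁.alt, ndV := x₁.ndV }

theorem Osc.U_map (O : Osc ψ ω Q γ S) (O₁ : Osc ψ ω₁ Q γ₁ S₁) (Φ : End ℂ S₁ →ₗ[ℂ] End ℂ S) {u : V} {u₁ : V₁}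
    (h : ∀ w, O.D u w = Φ (O₁.D u₁ w)) (a : F) : O.U u a = Φ (O₁.U u₁ a) := by
  have := O.cx.fW
  have := Fintype.ofFinite W
  rw [Osc.U, Osc.U, finsum_eq_sum_of_fintype, finsum_eq_sum_of_fintype, map_smul, map_sum]
  simp only [map_smul, h]

section V

variable (e : V ≃ₗ[F] V₁ × V₂) (hω : ∀ v v', ω v v' = ω₁ (e v).1 (e v').1 + ω₂ (e v).2 (e v').2)
include hω

theorem Cx.sumV (x₁ : Cx ψ ω₁ Q γ) (x₂ : Cx ψ ω₂ Q γ₂) : Cx ψ ω Q γ :=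
  { x₁ with
    fV := have := x₁.fV; have := x₂.fV; Finite.of_equiv _ e.toEquiv.symm
    alt := fun v => by rw [hω, x₁.alt, x₂.alt, add_zero]
    ndV := fun v h => e.map_eq_zero_iff.1 (Prod.ext (x₁.ndV _ fun u => by simpa [hω] using h (e.symm (u, 0)))
      (x₂.ndV _ fun u => by simpa [hω] using h (e.symm (0, u)))) }

variable {g : V ≃ₗ[F] V} {g₁ : V₁ ≃ₗ[F] V₁} {g₂ : V₂ ≃ₗ[F] V₂} {h : W ≃ₗ[F] W}

/-- **orthogonal sums of symplectic spaces** -/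
theorem Th_sumV (x₁ : Cx ψ ω₁ Q γ₁) (x₂ : Cx ψ ω₂ Q γ₂) (hg₁ : IsV ω₁ g₁) (hg₂ : IsV ω₂ g₂)
    (H : ∀ v, e (g v) = (g₁ (e v).1, g₂ (e v).2)) (hh : IsW Q h) :
    Th ψ ω Q g h = Th ψ ω₁ Q g₁ h * Th ψ ω₂ Q g₂ h := by
  replace x₂ := x₁.mix x₂
  obtain ⟨U₁, ⟨O₁⟩⟩ := x₁.exists_osc
  obtain ⟨U₂, ⟨O'⟩⟩ := x₂.exists_osc
  have := O₁.fin
  have := O'.fin
  have := x₁.fdV
  have := x₂.fdV
  have hg := IsV.sum e hω hg₁ hg₂ H
  have hd : finrank F V = finrank F V₁ + finrank F V₂ := by rw [e.finrank_eq, finrank_prod]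
  let O₂ := O'.pull (LinearEquiv.refl F V₂) (LinearEquiv.refl F W) (c := 1) (fun _ _ => (one_mul _).symm)
    (fun _ => (one_mul _).symm) x₂ O₁.b O₁.hb
  let O := O₁.tens O₂ (x₁.sumV e hω x₂) O₁.b O₁.hb
    (TensorProduct.map (LinearMap.fst F V₁ V₂ ∘ₗ e.toLinearMap) LinearMap.id)
    (TensorProduct.map (LinearMap.snd F V₁ V₂ ∘ₗ e.toLinearMap) LinearMap.id) (fun y h1 h2 => by
      have h3 := LinearMap.congr_fun (TensorProduct.ext' (g := LinearMap.id) (h :=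
        TensorProduct.map (e.symm.toLinearMap ∘ₗ LinearMap.inl F V₁ V₂) LinearMap.id ∘ₗ
          TensorProduct.map (LinearMap.fst F V₁ V₂ ∘ₗ e.toLinearMap) LinearMap.id +
        TensorProduct.map (e.symm.toLinearMap ∘ₗ LinearMap.inr F V₁ V₂) LinearMap.id ∘ₗ
          TensorProduct.map (LinearMap.snd F V₁ V₂ ∘ₗ e.toLinearMap) (LinearMap.id (M := W))) fun v w => by
            simp [← add_tmul, ← map_add]) y
      rwa [LinearMap.add_apply, LinearMap.comp_apply, LinearMap.comp_apply, h1, h2, map_zero, map_zero, add_zero] at h3)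
    (fun v w v' w' => by
      rw [hω, add_mul, map_tmul, map_tmul, map_tmul, map_tmul, tm_tmul, tm_tmul]
      rfl) (by rw [hd, pow_add])
  have hD : ∀ v w, O.D v w = TensorProduct.map (O₁.D (e v).1 w) (O₂.D (e v).2 w) := fun _ _ => rfl
  obtain ⟨L₁, -, h₁⟩ := x₁.exists_lag (E := ⊥) fun v hv _ _ => by rw [(Submodule.mem_bot F).1 hv, LinearMap.map_zero₂]
  obtain ⟨L₂, -, h₂⟩ := x₂.exists_lag (E := ⊥) fun v hv _ _ => by rw [(Submodule.mem_bot F).1 hv, LinearMap.map_zero₂]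
  have h3 := x₁.dim_lag h₁
  have h4 := x₂.dim_lag h₂
  have h5 : ∀ k₁, IsV ω₁ k₁ → ∀ k₂, IsV ω₂ k₂ →
      O.A (e.trans ((k₁.prodCongr k₂).trans e.symm)) = TensorProduct.map (O₁.A k₁) (O₂.A k₂) := fun k₁ hk₁ k₂ hk₂ => by
    have h6 : ∀ k₁, IsV ω₁ k₁ → ∀ k₂, IsV ω₂ k₂ → IsV ω (e.trans ((k₁.prodCongr k₂).trans e.symm)) :=
      fun k₁ hk₁ k₂ hk₂ => IsV.sum e hω hk₁ hk₂ fun v => e.apply_symm_apply _
    refine x₁.tv_ind (P := fun k₁ => O.A (e.trans ((k₁.prodCongr k₂).trans e.symm)) = TensorProduct.map (O₁.A k₁) (O₂.A k₂))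
      (x₂.tv_ind (P := fun k₂ => O.A (e.trans (((1 : V₁ ≃ₗ[F] V₁).prodCongr k₂).trans e.symm)) =
        TensorProduct.map (O₁.A 1) (O₂.A k₂)) ?_ (fun u a k ha hk ih => ?_) hk₂) (fun u a k ha hk ih => ?_) hk₁
    · rw [O₁.A_one, O₂.A_one, TensorProduct.map_one, ← O.A_one]
      exact congrArg _ (LinearEquiv.ext fun v => e.symm_apply_apply v)
    · rw [show O₂.A (x₂.tv u a * k) = _ from O₂.A_tv_mul hk u ha, ← one_mul (O₁.A 1), TensorProduct.map_mul, ← ih,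
        show TensorProduct.map 1 (O₂.U u a) = O.U (e.symm (0, u)) a from
          (O.U_map O₂ (LinearMap.lTensorHom _) (fun w => by rw [hD, e.apply_symm_apply, Osc.zero_D]; rfl) a).symm,
        ← O.A_tv_mul (h6 _ (IsV.one _) _ hk) _ ha]
      exact congrArg _ (LinearEquiv.ext fun v => e.injective (by simp [Cx.tv_apply, hω]))
    · rw [show O₁.A (x₁.tv u a * k) = _ from O₁.A_tv_mul hk u ha, ← one_mul (O₂.A k₂), TensorProduct.map_mul, ← ih,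
        show TensorProduct.map (O₁.U u a) 1 = O.U (e.symm (u, 0)) a from
          (O.U_map O₁ (LinearMap.rTensorHom _) (fun w => by rw [hD, e.apply_symm_apply, Osc.zero_D]; rfl) a).symm,
        ← O.A_tv_mul (h6 _ hk _ hk₂) _ ha]
      exact congrArg _ (LinearEquiv.ext fun v => e.injective (by simp [Cx.tv_apply, hω]))
  rw [← O.tr_eq_Th hg hh, ← O₁.tr_eq_Th hg₁ hh, ← O₂.tr_eq_Th hg₂ hh, ← LinearMap.trace_tensorProduct',
    TensorProduct.map_mul, ← h5 _ hg₁ _ hg₂,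
    show e.trans ((g₁.prodCongr g₂).trans e.symm) = g from LinearEquiv.ext fun v => e.symm_apply_eq.2 (H v).symm,
    O.eq_C hh (a := TensorProduct.map (O₁.C h) (O₂.C h)) (O.ic_of_D hh fun v w => by
      rw [hD, hD, ← TensorProduct.map_mul, ← TensorProduct.map_mul, O₁.C_D hh, O₂.C_D hh]) (by
      rw [LinearMap.trace_tensorProduct', O₁.tr_C hh, O₂.tr_C hh, Osc.cW, Osc.cW, Osc.cW, ← pow_add]
      congr 1
      omega)]

end V

section W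

variable (e : W ≃ₗ[F] W₁ × W₂) (hQ : ∀ w, Q w = Q₁ (e w).1 + Q₂ (e w).2)
  {g : V ≃ₗ[F] V} {h : W ≃ₗ[F] W} {h₁ : W₁ ≃ₗ[F] W₁} {h₂ : W₂ ≃ₗ[F] W₂}
include hQ

/-- **orthogonal sums of quadratic spaces** -/
theorem Th_sumW (x₁ : Cx ψ ω Q₁ γ₁) (x₂ : Cx ψ ω Q₂ γ₂) (hh₁ : IsW Q₁ h₁) (hh₂ : IsW Q₂ h₂)
    (H : ∀ w, e (h w) = (h₁ (e w).1, h₂ (e w).2)) (hg : IsV ω g) :
    Th ψ ω Q g h = Th ψ ω Q₁ g h₁ * Th ψ ω Q₂ g h₂ := by
  obtain ⟨U₁, ⟨O₁⟩⟩ := x₁.exists_osc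
  obtain ⟨U₂, ⟨O₂⟩⟩ := x₂.exists_osc
  have := O₁.fin
  have := O₂.fin
  have hh := IsW.sum e hQ hh₁ hh₂ H
  let O := O₁.sumW e hQ O₂
  have hD : ∀ v w, O.D v w = TensorProduct.map (O₁.D v (e w).1) (O₂.D v (e w).2) := fun _ _ => rfl
  rw [← O.tr_eq_Th hg hh, ← O₁.tr_eq_Th hg hh₁, ← O₂.tr_eq_Th hg hh₂, ← LinearMap.trace_tensorProduct',
    TensorProduct.map_mul, ← O.eq_A (f := fun g => TensorProduct.map (O₁.A g) (O₂.A g))
      (by rw [O₁.A_one, O₂.A_one, TensorProduct.map_one]) (fun u a k ha hk => by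
        rw [Osc.sumW_U, ← TensorProduct.map_mul, ← O₁.A_tv_mul hk u ha, ← O₂.A_tv_mul hk u ha]
        rfl) hg,
    O.eq_C hh (a := TensorProduct.map (O₁.C h₁) (O₂.C h₂)) (O.ic_of_D hh fun v w => by
      rw [hD, hD, ← TensorProduct.map_mul, ← TensorProduct.map_mul, O₁.C_D hh₁, O₂.C_D hh₂, H]) (by
      rw [LinearMap.trace_tensorProduct', O₁.tr_C hh₁, O₂.tr_C hh₂, Osc.cW, Osc.cW, Osc.cW, ← mul_pow, ← Nat.cast_mul,
        Nat.card_congr (fxProd e H).toEquiv, Nat.card_prod])]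

end W

end Cfsg.Agent.PQ.Wo
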