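import Cfsg.Agent.PQ.Wo.C

/-!
# The action of `Sp V`, `q` odd, `dim W` arbitrary
-/

set_option autoImplicit false
set_option linter.unusedSectionVars false

namespace Cfsg.Agent.PQ.Wo

open TensorProduct Module Cfsg.Agent.PQ.Wl
open LinearMap (BilinForm trace)

variable {F : Type} [Field F] {V W V₁ W₁ V₂ W₂ : Type} [AddCommGroup V] [Module F V] [AddCommGroup W] [Module F W]
  [AddCommGroup V₁] [Module F V₁] [AddCommGroup W₁] [Module F W₁] [AddCommGroup V₂] [Module F V₂] [AddCommGroup W₂]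
  [Module F W₂] {ψ : AddChar F ℂ} {ω : BilinForm F V} {Q : QuadraticForm F W} {γ γ' γ₁ γ₂ : ℂ} {ω₁ : BilinForm F V₁}
  {Q₁ : QuadraticForm F W₁} {ω₂ : BilinForm F V₂} {Q₂ : QuadraticForm F W₂}
  {S S₁ S₂ : Type} [AddCommGroup S] [Module ℂ S] [AddCommGroup S₁] [Module ℂ S₁] [AddCommGroup S₂] [Module ℂ S₂]

/-- the Gauss sums -/
noncomputable def G (ψ : AddChar F ℂ) (Q : QuadraticForm F W) (c : F) : ℂ := ∑ᶠ w, ψ (c * Q w)

theorem Cx.G_ne (x : Cx ψ ω Q γ) {c : F} (hc : c ≠ 0) : G ψ Q c ≠ 0 := fun h => by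
  have := x.fF
  have := x.fW
  have h1 := gauss_norm x.ψne x.ndW hc
  rw [show ∑ᶠ w, ψ (c * Q w) = 0 from h, norm_zero, zero_pow two_ne_zero] at h1
  exact Nat.card_pos.ne' (Nat.cast_eq_zero.1 h1.symm)

theorem Cx.ofWl (x : Wl.Cx ψ ω Q γ) (h2 : (2 : F) ≠ 0) : Cx ψ ω Q γ :=
  ⟨x.fF, x.fV, x.fW, x.ψne, x.alt, x.ndV, x.ndW, h2, x.sq⟩

theorem Cx.toWl (x : Cx ψ ω Q γ) (h : Even (finrank F W)) : Wl.Cx ψ ω Q (gs ψ Q) :=
  have := x.fF
  have := x.fV
  have := x.fW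
  exists_cx x.ψne x.ndW x.alt x.ndV h

/-- a model in the sense of `PQ.Wl` -/
noncomputable def Osc.toWl (O : Osc ψ ω Q γ S) (x : Wl.Cx ψ ω Q γ') : Wl.Osc ψ ω Q γ' S :=
  ⟨x, O.fin, O.ω₀, O.hω, O.b, O.hb, O.e, O.e_mul, O.e_zero, O.tr_e, by rw [O.dim, O.cx.pw, (Cx.ofWl x O.cx.two).pw]⟩

/-- the tensor product of two models -/
noncomputable def Osc.tens (O₁ : Osc ψ ω₁ Q₁ γ₁ S₁) (O₂ : Osc ψ ω₂ Q₂ γ₂ S₂) (x : Cx ψ ω Q γ) (b : BilinForm F W)
    (hb : ∀ w, b w w = Q w) (p₁ : V ⊗[F] W →ₗ[F] V₁ ⊗[F] W₁) (p₂ : V ⊗[F] W →ₗ[F] V₂ ⊗[F] W₂)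
    (hp : ∀ y, p₁ y = 0 → p₂ y = 0 → y = 0)
    (hβ : ∀ v w v' w', ω v v' * b w w' = tm ω₁ O₁.b (p₁ (v ⊗ₜ w)) (p₁ (v' ⊗ₜ w')) + tm ω₂ O₂.b (p₂ (v ⊗ₜ w)) (p₂ (v' ⊗ₜ w')))
    (hd : γ ^ finrank F V = γ₁ ^ finrank F V₁ * γ₂ ^ finrank F V₂) : Osc ψ ω Q γ (S₁ ⊗[ℂ] S₂) where
  cx := x
  fin := have := O₁.fin; have := O₂.fin; inferInstance
  ω₀ := (@exists_half F _ V _ _ ω x.fdV x.alt).choose
  hω := (@exists_half F _ V _ _ ω x.fdV x.alt).choose_spec
  b := b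
  hb := hb
  e y := TensorProduct.map (O₁.e (p₁ y)) (O₂.e (p₂ y))
  e_mul y z := by
    have h : tm ω b y z = tm ω₁ O₁.b (p₁ y) (p₁ z) + tm ω₂ O₂.b (p₂ y) (p₂ z) :=
      LinearMap.congr_fun₂ (bil_ext (b := (tm ω₁ O₁.b).compl₁₂ p₁ p₁ + (tm ω₂ O₂.b).compl₁₂ p₂ p₂) fun v w v' w' =>
        (tm_tmul _ _ _ _ _ _).trans (hβ v w v' w')) y z
    rw [← TensorProduct.map_mul, O₁.e_mul, O₂.e_mul, map_smul_left, map_smul_right, smul_smul, h, AddChar.map_add_eq_mul,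
      map_add, map_add]
  e_zero := by rw [map_zero, map_zero, O₁.e_zero, O₂.e_zero, TensorProduct.map_one]
  tr_e y hy := by
    have := O₁.fin
    have := O₂.fin
    rw [LinearMap.trace_tensorProduct']
    by_cases h : p₁ y = 0
    · rw [O₂.tr_e _ fun h' => hy (hp y h h'), mul_zero]
    · rw [O₁.tr_e _ h, zero_mul]
  dim := by
    have := O₁.fin
    have := O₂.fin
    rw [finrank_tensorProduct, Nat.cast_mul, O₁.dim, O₂.dim, hd]

section W

variable (e : W ≃ₗ[F] W₁ × W₂) (hQ : ∀ w, Q w = Q₁ (e w).1 + Q₂ (e w).2)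
include hQ

theorem Cx.sumW (x₁ : Cx ψ ω Q₁ γ₁) (x₂ : Cx ψ ω Q₂ γ₂) : Cx ψ ω Q (γ₁ * γ₂) :=
  { x₁ with
    fW := have := x₁.fW; have := x₂.fW; Finite.of_equiv _ e.toEquiv.symm
    ndW := fun v h => e.map_eq_zero_iff.1 (Prod.ext
      (x₁.ndW _ fun u => by simpa only [pol_sum e hQ, e.apply_symm_apply, map_zero, add_zero] using h (e.symm (u, 0)))
      (x₂.ndW _ fun u => by simpa only [pol_sum e hQ, e.apply_symm_apply, map_zero, zero_add] using h (e.symm (0, u))))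
    sq := by rw [mul_pow, x₁.sq, x₂.sq, Nat.card_congr e.toEquiv, Nat.card_prod, Nat.cast_mul] }

theorem G_sum [Finite W₁] [Finite W₂] (c : F) : G ψ Q c = G ψ Q₁ c * G ψ Q₂ c := by
  have := Fintype.ofFinite W₁
  have := Fintype.ofFinite W₂
  rw [G, G, G, ← finsum_comp_equiv e.toEquiv.symm, finsum_eq_sum_of_fintype,
    finsum_eq_sum_of_fintype, finsum_eq_sum_of_fintype, Finset.sum_mul_sum, Fintype.sum_prod_type]
  simp [hQ, mul_add, AddChar.map_add_eq_mul]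

/-- the model of an orthogonal sum of quadratic spaces -/
noncomputable def Osc.sumW (O₁ : Osc ψ ω Q₁ γ₁ S₁) (O₂ : Osc ψ ω Q₂ γ₂ S₂) : Osc ψ ω Q (γ₁ * γ₂) (S₁ ⊗[ℂ] S₂) :=
  O₁.tens O₂ (O₁.cx.sumW e hQ O₂.cx)
    (O₁.b.compl₁₂ (LinearMap.fst F W₁ W₂ ∘ₗ e.toLinearMap) (LinearMap.fst F W₁ W₂ ∘ₗ e.toLinearMap) +
      O₂.b.compl₁₂ (LinearMap.snd F W₁ W₂ ∘ₗ e.toLinearMap) (LinearMap.snd F W₁ W₂ ∘ₗ e.toLinearMap))
    (fun w => by rw [hQ, ← O₁.hb, ← O₂.hb]; rfl)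
    (TensorProduct.map LinearMap.id (LinearMap.fst F W₁ W₂ ∘ₗ e.toLinearMap))
    (TensorProduct.map LinearMap.id (LinearMap.snd F W₁ W₂ ∘ₗ e.toLinearMap)) (fun y h1 h2 => by
      have h3 := LinearMap.congr_fun (TensorProduct.ext' (g := LinearMap.id) (h :=
        TensorProduct.map LinearMap.id (e.symm.toLinearMap ∘ₗ LinearMap.inl F W₁ W₂) ∘ₗ
          TensorProduct.map LinearMap.id (LinearMap.fst F W₁ W₂ ∘ₗ e.toLinearMap) +
        TensorProduct.map LinearMap.id (e.symm.toLinearMap ∘ₗ LinearMap.inr F W₁ W₂) ∘ₗ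
          TensorProduct.map (LinearMap.id (M := V)) (LinearMap.snd F W₁ W₂ ∘ₗ e.toLinearMap)) fun v w => by
            simp [← tmul_add, ← map_add]) y
      rwa [LinearMap.add_apply, LinearMap.comp_apply, LinearMap.comp_apply, h1, h2, map_zero, map_zero, add_zero] at h3)
    (fun v w v' w' => by
      rw [map_tmul, map_tmul, map_tmul, map_tmul, tm_tmul, tm_tmul]
      exact mul_add _ _ _) (mul_pow _ _ _)

theorem Osc.sumW_D (O₁ : Osc ψ ω Q₁ γ₁ S₁) (O₂ : Osc ψ ω Q₂ γ₂ S₂) (v : V) (w : W) :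
    (O₁.sumW e hQ O₂).D v w = TensorProduct.map (O₁.D v (e w).1) (O₂.D v (e w).2) := rfl

end W

namespace Osc

variable (O : Osc ψ ω Q γ S)

/-- the operator of a transvection -/
noncomputable def U (u : V) (a : F) : End ℂ S := (G ψ Q a⁻¹)⁻¹ • ∑ᶠ w, ψ (a⁻¹ * Q w) • O.D u w

theorem U_D (u : V) {a : F} (ha : a ≠ 0) (v : V) (w : W) : O.U u a * O.D v w = O.D (O.cx.tv u a v) w * O.U u a := by
  have := O.cx.fW
  have := Fintype.ofFinite W
  have h1 : O.D (O.cx.tv u a v) w = ψ (-(a * ω v u * ω v u * Q w)) • (O.D v w * O.D u ((a * ω v u) • w)) := by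
    rw [← D_smul, D_addV, smul_smul, ← AddChar.map_add_eq_mul, map_smul, smul_eq_mul, neg_add_cancel,
      AddChar.map_zero_eq_one, one_smul, Cx.tv_apply]
  rw [U, finsum_eq_sum_of_fintype, smul_mul_assoc, mul_smul_comm, Finset.sum_mul, Finset.mul_sum,
    ← Equiv.sum_comp (Equiv.addLeft ((a * ω v u) • w))]
  refine congrArg _ (Finset.sum_congr rfl fun y _ => ?_)
  rw [h1, smul_mul_assoc, D_comm, smul_mul_smul_comm, mul_assoc (O.D v w), D_addW, smul_smul, ← AddChar.map_add_eq_mul,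
    ← AddChar.map_add_eq_mul, Equiv.coe_addLeft]
  congr 2
  simp only [QuadraticMap.map_add Q, QuadraticMap.map_smul, map_add, map_smul, LinearMap.add_apply, LinearMap.smul_apply,
    QuadraticMap.polarBilin_apply_apply, QuadraticMap.polar_self, QuadraticMap.polar_smul_left, smul_eq_mul,
    O.cx.skew u v, QuadraticMap.polar_comm Q y w, nsmul_eq_mul]
  field_simp
  ring

theorem U_mul {u : V} {a : F} (ha : a ≠ 0) {m : End ℂ S} (h : ∀ w, O.D u w * m = m) : O.U u a * m = m := by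
  have := O.cx.fW
  have := Fintype.ofFinite W
  rw [U, finsum_eq_sum_of_fintype, smul_mul_assoc, Finset.sum_mul]
  simp only [smul_mul_assoc, h, ← Finset.sum_smul]
  rw [← finsum_eq_sum_of_fintype, ← G, inv_smul_smul₀ (O.cx.G_ne (inv_ne_zero ha))]

theorem U_pV {E : Submodule F V} (hE : ItV ω E) {u : V} (hu : u ∈ E) {a : F} (ha : a ≠ 0) : O.U u a * O.pV E = O.pV E :=
  O.U_mul ha fun _ => O.e_pV hE (tmul_mem hu Submodule.mem_top)

theorem pV_ne (E : Submodule F V) : O.pV E ≠ 0 := fun h => O.tr_pV_ne E (by rw [h, map_zero])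

theorem toWl_U (x : Wl.Cx ψ ω Q γ') (u : V) {a : F} (ha : a ≠ 0) : (O.toWl x).U u a = O.U u a := by
  rw [U, G, x.gauss _ (inv_ne_zero ha)]
  rfl

theorem sumW_U (e : W ≃ₗ[F] W₁ × W₂) (hQ : ∀ w, Q w = Q₁ (e w).1 + Q₂ (e w).2) (O₁ : Osc ψ ω Q₁ γ₁ S₁)
    (O₂ : Osc ψ ω Q₂ γ₂ S₂) (u : V) (a : F) : (O₁.sumW e hQ O₂).U u a = TensorProduct.map (O₁.U u a) (O₂.U u a) := by
  have := O₁.cx.fW
  have := O₂.cx.fW
  have := Fintype.ofFinite W₁
  have := Fintype.ofFinite W₂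
  rw [U, U, U, map_smul_left, map_smul_right, smul_smul, G_sum e hQ, mul_inv, ← finsum_comp_equiv e.toEquiv.symm,
    finsum_eq_sum_of_fintype, finsum_eq_sum_of_fintype, finsum_eq_sum_of_fintype, Fintype.sum_prod_type,
    ← mapBilinear_apply, map_sum, Finset.sum_comm]
  refine congrArg _ (Finset.sum_congr rfl fun w₂ _ => ?_)
  rw [map_sum, LinearMap.sum_apply]
  refine Finset.sum_congr rfl fun w₁ _ => ?_
  rw [mapBilinear_apply, map_smul_left, map_smul_right, smul_smul, ← AddChar.map_add_eq_mul, sumW_D, hQ]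
  simp [mul_add]

/-- intertwiners -/
def IA (g : V ≃ₗ[F] V) (a : End ℂ S) : Prop := ∀ v w, a * O.D v w = O.D (g v) w * a

theorem IA.one : O.IA 1 1 := fun _ _ => by rw [one_mul, mul_one]; rfl

variable {O} in
theorem IA.mul {g g' : V ≃ₗ[F] V} {a a' : End ℂ S} (h : O.IA g a) (h' : O.IA g' a') : O.IA (g * g') (a * a') := fun v w => by
  rw [mul_assoc, h', ← mul_assoc, h, mul_assoc]
  rfl

variable {O} in
theorem IA.scal {a : End ℂ S} (h : O.IA 1 a) : ∃ t : ℂ, a = t • 1 := ⟨_, O.schur (O.comm_of_D h)⟩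

theorem U_pow (u : V) {a : F} (ha : a ≠ 0) : O.U u a ^ ringChar F = 1 := by
  have h1 : ∀ n : ℕ, O.IA (O.cx.tv u (n * a)) (O.U u a ^ n) ∧ O.U u a ^ n * O.pV (F ∙ u) = O.pV (F ∙ u) := fun n => by
    induction n with
    | zero => exact ⟨fun v w => by simp [Cx.tv_apply], by rw [pow_zero, one_mul]⟩
    | succ n ih =>
      refine ⟨?_, by rw [pow_succ, mul_assoc, O.U_pV (itV_span O.cx u) (Submodule.mem_span_singleton_self u) ha, ih.2]⟩
      rw [pow_succ]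
      convert ih.1.mul (O.U_D u ha) using 1
      refine LinearEquiv.ext fun v => ?_
      simp only [LinearEquiv.mul_apply, Cx.tv_apply, map_add, map_smul, O.cx.alt,
        Nat.cast_succ, add_mul, add_smul, mul_zero, zero_smul, add_zero, one_mul, add_assoc]
  obtain ⟨h2, h3⟩ := h1 (ringChar F)
  obtain ⟨t, ht⟩ := IA.scal (a := O.U u a ^ ringChar F) fun v w => by
    rw [h2, Cx.tv_apply, ringChar.Nat.cast_ringChar, zero_mul, zero_mul, zero_smul, add_zero]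
    rfl
  rw [ht, smul_mul_assoc, one_mul] at h3
  rw [ht, show t = 1 from smul_left_injective ℂ (O.pV_ne _) (h3.trans (one_smul _ _).symm), one_smul]

/-- products of the operators of transvections -/
inductive Gen : (V ≃ₗ[F] V) → End ℂ S → Prop
  | one : Gen 1 1
  | tv (u : V) (a : F) (g : V ≃ₗ[F] V) (x : End ℂ S) : a ≠ 0 → Gen g x → Gen (O.cx.tv u a * g) (O.U u a * x)

variable {g g' : V ≃ₗ[F] V} {x x' : End ℂ S}

variable {O} in
theorem Gen.isV (h : O.Gen g x) : IsV ω g := by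
  induction h with
  | one => exact IsV.one ω
  | tv u a g x _ _ ih => exact (O.cx.isV_tv u a).mul ih

variable {O} in
theorem Gen.ia (h : O.Gen g x) : O.IA g x := by
  induction h with
  | one => exact IA.one O
  | tv u a g x ha _ ih => exact IA.mul (O.U_D u ha) ih

variable {O} in
theorem Gen.mul (h : O.Gen g x) (h' : O.Gen g' x') : O.Gen (g * g') (x * x') := by
  induction h with
  | one => rwa [one_mul, one_mul]
  | tv u a g x ha _ ih =>
    rw [mul_assoc, mul_assoc]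
    exact Gen.tv u a _ _ ha ih

theorem exists_gen (hg : IsV ω g) : ∃ x, O.Gen g x :=
  O.cx.tv_ind (P := fun g => ∃ x, O.Gen g x) ⟨1, Gen.one⟩ (fun u a g ha _ ⟨x, h⟩ => ⟨_, Gen.tv u a g x ha h⟩) hg

variable {O} in
/-- **the projective representation lifts** -/
theorem Gen.eq_one (h : O.Gen 1 x) : x = 1 := by
  have c := O.cx
  have := O.fin
  have := c.fF
  have := c.fdW
  have := Fintype.ofFinite F
  let O₁ := O.sumW (Q := Q.prod Q) (LinearEquiv.refl F _) (fun _ => rfl) O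
  let O₂ := O₁.toWl (O₁.cx.toWl (by rw [finrank_prod]; exact Even.add_self _))
  have h1 : ∀ g x, O.Gen g x → TensorProduct.map x x = O₂.A g ∧ LinearMap.det x ^ ringChar F = 1 := fun g x h => by
    induction h with
    | one => exact ⟨by rw [TensorProduct.map_one, O₂.A_one], by rw [map_one, one_pow]⟩
    | tv u a g x ha h ih =>
      refine ⟨?_, by rw [map_mul, mul_pow, ih.2, ← map_pow, O.U_pow u ha, map_one, mul_one]⟩
      rw [TensorProduct.map_mul, ih.1, O₂.A_mul (c.isV_tv u a) h.isV, ← sumW_U (Q := Q.prod Q) (LinearEquiv.refl F _) fun _ => rfl,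
        ← O₁.toWl_U O₂.cx u ha, ← O₂.A_tv u ha]
      rfl
  obtain ⟨h2, h3⟩ := h1 1 x h
  obtain ⟨t, rfl⟩ := h.ia.scal
  have h4 := congrArg (trace ℂ _) h2
  rw [map_smul_left, map_smul_right, TensorProduct.map_one, O₂.A_one, smul_smul, map_smul, smul_eq_mul,
    mul_eq_right₀ (O₂.tr_one ▸ pow_ne_zero _ O₂.cx.γ_ne)] at h4
  rw [LinearMap.det_smul, map_one, mul_one, ← pow_mul] at h3
  have h5 : ringChar F ≠ 2 := fun h5 => c.two (by rw [← Nat.cast_ofNat, ← h5, ringChar.Nat.cast_ringChar])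
  have h6 : Odd (finrank ℂ S) := by
    have h6 := O.dim
    rw [c.pw, Module.natCard_eq_pow_finrank (K := F), Nat.card_eq_fintype_card] at h6
    rw [show finrank ℂ S = _ by exact_mod_cast h6]
    exact (Nat.odd_iff.2 (FiniteField.odd_card_of_char_ne_two h5)).pow.pow
  obtain ⟨k, hk⟩ := h6.mul ((CharP.char_is_prime F (ringChar F)).odd_of_ne_two h5)
  rw [hk, pow_succ, pow_mul, pow_two, h4, one_pow, one_mul] at h3
  rw [h3, one_smul]

variable {O} in
theorem Gen.unique (h : O.Gen g x) (h' : O.Gen g x') : x = x' := by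
  obtain ⟨y, hy⟩ := O.exists_gen h.isV.inv
  have h1 := Gen.eq_one (mul_inv_cancel g ▸ h.mul hy)
  have h2 := Gen.eq_one (inv_mul_cancel g ▸ hy.mul h')
  rw [← mul_one x, ← h2, ← mul_assoc, h1, one_mul]

open Classical in
/-- **the action of `Sp V`** -/
noncomputable def A (g : V ≃ₗ[F] V) : End ℂ S := if hg : IsV ω g then (O.exists_gen hg).choose else 1

theorem gen_A (hg : IsV ω g) : O.Gen g (O.A g) := by
  rw [A, dif_pos hg]
  exact (O.exists_gen hg).choose_spec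

theorem A_D (hg : IsV ω g) (v : V) (w : W) : O.A g * O.D v w = O.D (g v) w * O.A g := (O.gen_A hg).ia v w

theorem A_mul (hg : IsV ω g) (hg' : IsV ω g') : O.A (g * g') = O.A g * O.A g' :=
  (O.gen_A (hg.mul hg')).unique ((O.gen_A hg).mul (O.gen_A hg'))

theorem A_one : O.A 1 = 1 := (O.gen_A (IsV.one ω)).eq_one

theorem A_tv (u : V) {a : F} (ha : a ≠ 0) : O.A (O.cx.tv u a) = O.U u a := by
  simpa only [mul_one] using (O.gen_A ((O.cx.isV_tv u a).mul (IsV.one ω))).unique (Gen.tv u a 1 1 ha Gen.one)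

theorem A_tv_mul (hg : IsV ω g) (u : V) {a : F} (ha : a ≠ 0) : O.A (O.cx.tv u a * g) = O.U u a * O.A g := by
  rw [O.A_mul (O.cx.isV_tv u a) hg, O.A_tv u ha]

theorem A_inv_mul (hg : IsV ω g) : O.A g⁻¹ * O.A g = 1 := by rw [← O.A_mul hg.inv hg, inv_mul_cancel, A_one]

theorem A_mul_inv (hg : IsV ω g) : O.A g * O.A g⁻¹ = 1 := by rw [← O.A_mul hg hg.inv, mul_inv_cancel, A_one]

/-- intertwiners are unique up to a scalar -/
theorem eq_smul_A (hg : IsV ω g) {a : End ℂ S} (h : O.IA g a) : ∃ t : ℂ, a = t • O.A g := by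
  obtain ⟨t, ht⟩ := IA.scal (inv_mul_cancel g ▸ IA.mul (O.A_D hg.inv) h)
  exact ⟨t, by rw [← one_mul a, ← O.A_mul_inv hg, mul_assoc, ht, mul_smul_comm, mul_one]⟩

/-- the characterisation of `U u c` -/
theorem eq_U {u : V} {c : F} (hc : c ≠ 0) {a m : End ℂ S} (h : O.IA (O.cx.tv u c) a) (h0 : m ≠ 0) (h1 : a * m = m)
    (h2 : ∀ w, O.D u w * m = m) : a = O.U u c := by
  obtain ⟨t, ht⟩ := O.eq_smul_A (O.cx.isV_tv u c) h
  rw [O.A_tv u hc] at ht
  rw [ht, smul_mul_assoc, O.U_mul hc h2] at h1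
  rw [ht, show t = 1 from smul_left_injective ℂ h0 (h1.trans (one_smul _ _).symm), one_smul]

/-- **the characterisation of `A`** -/
theorem eq_A {f : (V ≃ₗ[F] V) → End ℂ S} (h1 : f 1 = 1)
    (h2 : ∀ u a g, a ≠ 0 → IsV ω g → f (O.cx.tv u a * g) = O.U u a * f g) (hg : IsV ω g) : f g = O.A g :=
  O.cx.tv_ind (P := fun g => f g = O.A g) (h1.trans O.A_one.symm)
    (fun u a g ha hg h => by rw [h2 u a g ha hg, h, O.A_tv_mul hg u ha]) hg

theorem toWl_A (x : Wl.Cx ψ ω Q γ') (hg : IsV ω g) : (O.toWl x).A g = O.A g :=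
  O.eq_A (Wl.Osc.A_one _) (fun u a g ha hg => by
    rw [Wl.Osc.A_mul _ (O.cx.isV_tv u a) hg, ← O.toWl_U x u ha, ← Wl.Osc.A_tv _ u ha]
    rfl) hg

theorem A_e (hg : IsV ω g) (x : V ⊗[F] W) : O.A g * O.e x = O.e (ac g 1 x) * O.A g := by
  induction x using TensorProduct.induction_on with
  | zero => rw [map_zero, O.e_zero, mul_one, one_mul]
  | tmul v w => exact O.A_D hg v w
  | add x y hx hy =>
    refine smul_right_injective _ (psi_ne ψ (tm ω O.b x y)) ?_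
    simp only []
    rw [← mul_smul_comm, ← smul_mul_assoc, ← O.e_mul, ← mul_assoc, hx, mul_assoc, hy, ← mul_assoc, O.e_mul, map_add,
      tm_ac hg fun _ _ => rfl]

/-- on `V ⊗ T` the section `tau` is invariant -/
theorem A_tau (hg : IsV ω g) {T : Submodule F W} (hT : ItW Q T) {x : V ⊗[F] W} (hx : x ∈ tp ⊤ T) :
    O.A g * O.tau x = O.tau (ac g 1 x) * O.A g :=
  tp_ind (P := fun x => O.A g * O.tau x = O.tau (ac g 1 x) * O.A g)
    (by rw [map_zero, O.tau_zero, mul_one, one_mul])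
    (fun v _ w hw => by rw [ac_tmul, O.tau_tmul _ (hT w hw)]; exact (O.tau_tmul _ (hT w hw)).symm ▸ O.A_D hg v w)
    (fun x hx y hy h1 h2 => by
      have h3 : ∀ w ∈ T, ∀ w' ∈ T, Q.polarBilin w w' = 0 := fun _ h _ h' => hT.polar h h'
      rw [← O.tau_add h3 hx hy, ← mul_assoc, h1, mul_assoc, h2, ← mul_assoc, map_add,
        O.tau_add h3 (ac_mem (fun _ _ => Submodule.mem_top) (fun _ h => h) hx)
          (ac_mem (fun _ _ => Submodule.mem_top) (fun _ h => h) hy)]) hx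

variable {E : Submodule F V}

theorem A_pV (hg : IsV ω g) (h : ∀ v ∈ E, g v ∈ E) : O.A g * O.pV E = O.pV E * O.A g :=
  have := O.cx.fX
  mul_av (rs (ac g 1) fun _ hy => ac_mem h (fun _ hw => hw) hy) fun y => O.A_e hg y

theorem A_pV_map (hg : IsV ω g) (E : Submodule F V) : O.A g * O.pV E = O.pV (E.map g.toLinearMap) * O.A g :=
  have := O.cx.fX
  mul_av ⟨fun y => ⟨ac g 1 y, ac_mem (fun _ hv => Submodule.mem_map_of_mem hv) (fun _ hw => hw) y.2⟩,
    fun y => ⟨ac g⁻¹ 1 y, ac_mem (by rintro _ ⟨v, hv, rfl⟩; exact (g.symm_apply_apply v).symm ▸ hv) (fun _ hw => hw) y.2⟩,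
    fun y => Subtype.ext (by simp only [← ac_mul, inv_mul_cancel, mul_one, ac_one]),
    fun y => Subtype.ext (by simp only [← ac_mul, mul_inv_cancel, mul_one, ac_one])⟩ fun y => O.A_e hg y

theorem A_pW {T : Submodule F W} (hT : ItW Q T) (hg : IsV ω g) : O.A g * O.pW T = O.pW T * O.A g :=
  have := O.cx.fX
  mul_av (rs (ac g 1) fun _ hy => ac_mem (fun _ _ => Submodule.mem_top) (fun _ hw => hw) hy) fun y => O.A_tau hg hT y.2

theorem A_comm_C {h : W ≃ₗ[F] W} (hg : IsV ω g) (hh : IsW Q h) : O.A g * O.C h = O.C h * O.A g := by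
  have := O.cx.fW
  have := Fintype.ofFinite W
  refine O.cx.tv_ind (P := fun g => O.A g * O.C h = O.C h * O.A g) (by rw [A_one, one_mul, mul_one])
    (fun u a g ha hg H => ?_) hg
  have h1 : O.U u a * O.C h = O.C h * O.U u a := by
    rw [U, finsum_eq_sum_of_fintype, smul_mul_assoc, mul_smul_comm, Finset.sum_mul, Finset.mul_sum, ← h.toEquiv.sum_comp]
    exact congrArg _ (Finset.sum_congr rfl fun w _ => by
      rw [smul_mul_assoc, mul_smul_comm, O.C_D hh, LinearEquiv.coe_toEquiv, hh w])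
  rw [O.A_tv_mul hg u ha, mul_assoc, H, ← mul_assoc, h1, mul_assoc]

end Osc

end Cfsg.Agent.PQ.Wo
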