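import Cfsg.Agent.PQ.Wo.A
import Cfsg.Agent.PQ.Mk.TwD

/-!
# The action of the parabolic subgroups of `Sp V` on the fixed vectors; Gauss sums in odd dimension
-/

set_option autoImplicit false
set_option linter.unusedSectionVars false

namespace Cfsg.Agent.PQ.Wo

open TensorProduct Module Cfsg.Agent.PQ.Wl Cfsg.Agent.PQ.Mk
open LinearMap (BilinForm trace)

variable {F : Type} [Field F] {V W : Type} [AddCommGroup V] [Module F V] [AddCommGroup W] [Module F W]
  {ψ : AddChar F ℂ} {ω : BilinForm F V} {Q : QuadraticForm F W} {γ : ℂ} {S : Type} [AddCommGroup S] [Module ℂ S]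

/-- the character which governs the Gauss sums -/
def Gc (ψ : AddChar F ℂ) (Q : QuadraticForm F W) (χ : MulChar F ℂ) : Prop := ∀ a, a ≠ 0 → G ψ Q a = χ a * G ψ Q 1

theorem Cx.mem_of_orth (c : Cx ψ ω Q γ) {K : Submodule F V} {v : V} (h : ∀ f ∈ ω.orthogonal K, ω v f = 0) : v ∈ K := by
  have := c.fdV
  have h1 := c.dim_orth K
  have h2 := c.dim_orth (ω.orthogonal K)
  exact (Submodule.eq_of_le_of_finrank_le (S₁ := K) (S₂ := ω.orthogonal (ω.orthogonal K))
    (fun x hx f hf => by rw [c.skew, hf x hx, neg_zero]) (by omega)).ge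
    fun f hf => by rw [c.skew, h f hf, neg_zero]

namespace Osc

variable (O : Osc ψ ω Q γ S) {L E : Submodule F V} {g : V ≃ₗ[F] V} {χ : MulChar F ℂ}

theorem pL_U_pL (hL : ω.orthogonal L = L) {u : V} (hu : u ∉ L) (a : F) :
    O.pV L * O.U u a * O.pV L = (G ψ Q a⁻¹)⁻¹ • O.pV L := by
  have := O.cx.fW
  have := Fintype.ofFinite W
  have h0 := itV_of_lag hL
  rw [U, finsum_eq_sum_of_fintype, mul_smul_comm, smul_mul_assoc, Finset.mul_sum, Finset.sum_mul,
    Finset.sum_eq_single 0 (fun w _ hw => ?_) (by simp), D_zero, map_zero, mul_zero, AddChar.map_zero_eq_one, one_smul,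
    mul_one, O.pV_pV h0]
  rw [mul_smul_comm, smul_mul_assoc, D, O.pV_e_pV h0 fun h => hu ?_, smul_zero]
  obtain ⟨φ, hφ⟩ := Module.Projective.exists_dual_ne_zero F hw
  have h1 := cr_mem φ h
  rwa [cr_tmul, hL, L.smul_mem_iff hφ] at h1

theorem A_pL_triv (hL : ω.orthogonal L = L) (hg : IsV ω g) (h : ∀ l ∈ L, g l = l) : O.A g * O.pV L = O.pV L := by
  have c := O.cx
  have := c.fdV
  have h0 := itV_of_lag hL
  induction hn : finrank F V - finrank F (fx g) using Nat.strong_induction_on generalizing g with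
  | _ n ih =>
  have h1 : ∀ v, v - g v ∈ L := fun v => hL.le fun l hl => by
    rw [map_sub, ← hg l v, h l hl, sub_self]
  by_cases h3 : ∃ v, ω (g v) v ≠ 0
  · obtain ⟨v, h4⟩ := h3
    have h5 : fx g < fx (c.tv (v - g v) (ω (g v) v)⁻¹ * g) := lt_of_le_of_ne (fun z hz => by
      rw [mem_fx] at hz ⊢
      rw [LinearEquiv.mul_apply, hz, Cx.tv_apply, map_sub, ← hg z v, hz, sub_self, mul_zero, zero_smul, add_zero])
      fun h6 => h4 (by
        have h7 : v ∈ fx g := h6 ▸ mem_fx.2 (by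
          rw [LinearEquiv.mul_apply, Cx.tv_apply, map_sub, c.alt, sub_zero, inv_mul_cancel₀ h4, one_smul, add_sub_cancel])
        rw [mem_fx.1 h7, c.alt])
    have h6 := Submodule.finrank_lt_finrank_of_lt h5
    have h7 := Submodule.finrank_le (fx (c.tv (v - g v) (ω (g v) v)⁻¹ * g))
    have h8 := ih _ (by omega) ((c.isV_tv (v - g v) (ω (g v) v)⁻¹).mul hg) (fun l hl => by
      rw [LinearEquiv.mul_apply, h l hl, Cx.tv_apply, h0 l hl _ (h1 v), mul_zero, zero_smul, add_zero]) rfl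
    have h9 : g = c.tv (v - g v) (-(ω (g v) v)⁻¹) * (c.tv (v - g v) (ω (g v) v)⁻¹ * g) := by
      rw [← c.tv_symm]
      exact (inv_mul_cancel_left _ _).symm
    rw [h9, O.A_tv_mul ((c.isV_tv _ _).mul hg) _ (neg_ne_zero.2 (inv_ne_zero h4)), mul_assoc, h8,
      O.U_pV h0 (h1 v) (neg_ne_zero.2 (inv_ne_zero h4))]
  · push Not at h3
    obtain rfl : g = 1 := LinearEquiv.ext fun v => show g v = v from (sub_eq_zero.1 (c.ndV _ fun v' => mul_left_cancel₀ c.two (by
      have h4 := h3 (v + v')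
      have h5 := h0 _ (h1 v) _ (h1 v')
      have h6 := hg v v'
      have h7 := c.skew (g v') v
      have h8 := c.skew v (g v')
      simp only [map_add, map_sub, LinearMap.add_apply, LinearMap.sub_apply, h3] at h4 h5 ⊢
      linear_combination h5 - h6 - h4 + h8))).symm
    rw [A_one, one_mul]

theorem chi_ne (hχ : Gc ψ Q χ) (c : Cx ψ ω Q γ) {a : F} (ha : a ≠ 0) : χ a ≠ 0 :=
  left_ne_zero_of_mul (hχ a ha ▸ c.G_ne ha)

/-- **the Siegel parabolic subgroup** -/
theorem A_pL (hχ : Gc ψ Q χ) (hL : ω.orthogonal L = L) (hg : IsV ω g) (h : ∀ l ∈ L, g l ∈ L) :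
    O.A g * O.pV L = χ (dt (g : V →ₗ[F] V) L) • O.pV L := by
  have c := O.cx
  have := c.fdV
  have h0 := itV_of_lag hL
  induction hn : finrank F L - finrank F ↥(L ⊓ fx g) using Nat.strong_induction_on generalizing g with
  | _ n ih =>
  by_cases h1 : ∀ l ∈ L, g l = l
  · rw [dt_congr (g := 1) h1, dt_one, map_one, one_smul, O.A_pL_triv hL hg h1]
  push Not at h1
  obtain ⟨v, hv, h1⟩ := h1
  obtain ⟨f₀, h2, h3⟩ := Wl.Cx.exists_both (φ := ω v ∘ₗ (ω.orthogonal (L ⊓ fx g)).subtype)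
    (φ' := ω (g v) ∘ₗ (ω.orthogonal (L ⊓ fx g)).subtype)
    (fun h2 => h1 (mem_fx.1 (c.mem_of_orth fun f hf => LinearMap.congr_fun h2 ⟨f, hf⟩).2))
    (fun h2 => h1 (g.injective (mem_fx.1 (c.mem_of_orth fun f hf => LinearMap.congr_fun h2 ⟨f, hf⟩).2)))
  obtain ⟨f, hf, h4, h5⟩ : ∃ f ∈ ω.orthogonal (L ⊓ fx g), ω v f ≠ 0 ∧ ω (g v) f = 1 :=
    ⟨(ω (g v) f₀)⁻¹ • f₀, Submodule.smul_mem _ _ f₀.2, by
      rw [map_smul]
      exact mul_ne_zero (inv_ne_zero h3) h2, by
      rw [map_smul]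
      exact inv_mul_cancel₀ h3⟩
  have hl : v - g v ∈ L := sub_mem hv (h v hv)
  have ha : 1 + ω (v - g v) f = ω v f := by rw [map_sub, LinearMap.sub_apply, h5, add_sub_cancel]
  generalize ω v f = a at h4 ha
  have hi := inv_ne_zero h4
  have hd := (c.isV_tv f (-a⁻¹)).mul (c.isV_tv (f + (v - g v)) 1)
  have h6 : ∀ x ∈ L, (c.tv f (-a⁻¹) * c.tv (f + (v - g v)) 1) x = x + ω x f • (v - g v) := fun x hx => by
    rw [LinearEquiv.mul_apply, Cx.tv_apply, Cx.tv_apply, map_add (ω x), h0 x hx _ hl, add_zero, one_mul, map_add ω,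
      map_smul, map_add ω, LinearMap.add_apply, LinearMap.smul_apply, LinearMap.add_apply, c.alt, zero_add, smul_eq_mul,
      ← mul_one_add, ha, mul_comm _ a, neg_mul, inv_mul_cancel_left₀ h4, smul_add, neg_smul]
    abel
  have h7 : O.A (c.tv f (-a⁻¹) * c.tv (f + (v - g v)) 1) = O.U f (-a⁻¹) * O.U (f + (v - g v)) 1 := by
    rw [O.A_tv_mul (c.isV_tv _ _) _ (neg_ne_zero.2 hi), O.A_tv _ one_ne_zero]
  have h8 : O.U f a⁻¹ * O.U f (-a⁻¹) = 1 := by
    rw [← O.A_tv f hi, ← O.A_tv f (neg_ne_zero.2 hi), ← c.tv_symm]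
    exact O.A_mul_inv (c.isV_tv _ _)
  generalize c.tv f (-a⁻¹) * c.tv (f + (v - g v)) 1 = d at hd h6 h7
  have h9 : ∀ x ∈ L, d x ∈ L := fun x hx => h6 x hx ▸ add_mem hx (L.smul_mem _ hl)
  have hfL : f ∉ L := fun hx => one_ne_zero (h5.symm.trans (h0 _ (h v hv) f hx))
  have h10 : O.A d * O.pV L = χ a • O.pV L := by
    have e1 := O.pL_mul_pL hL (O.A d)
    rw [← O.A_pV hd h9, mul_assoc, O.pV_pV h0] at e1
    generalize trace ℂ S _ = t at e1
    have e2 := congrArg (fun z => O.pV L * O.U f a⁻¹ * z) e1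
    simp only [h7] at e2
    rw [mul_assoc (O.pV L), ← mul_assoc (O.U f a⁻¹), ← mul_assoc (O.U f a⁻¹), h8, one_mul, ← mul_assoc, mul_smul_comm,
      O.pL_U_pL hL hfL, O.pL_U_pL hL fun hx => hfL (by simpa using sub_mem hx hl), smul_smul, inv_one, inv_inv,
      hχ a h4] at e2
    have e3 := smul_left_injective ℂ (O.pV_ne L) e2
    have e4 := c.G_ne (one_ne_zero (α := F))
    have e5 := chi_ne hχ c h4
    rw [e1, show t = χ a by field_simp at e3; exact e3.symm]
  have h11 : dt (d : V →ₗ[F] V) L = a := by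
    rw [dt_eq h9, show (d : V →ₗ[F] V).restrict h9 = LinearMap.transvection (LinearMap.flip ω f ∘ₗ L.subtype) ⟨_, hl⟩ from
      LinearMap.ext fun x => Subtype.ext (h6 x x.2), LinearMap.transvection.det]
    exact ha
  have h12 : L ⊓ fx g < L ⊓ fx (d * g) := lt_of_le_of_ne (fun x hx => ⟨hx.1, mem_fx.2 (by
      rw [LinearEquiv.mul_apply, mem_fx.1 hx.2, h6 x hx.1, hf x hx, zero_smul, add_zero])⟩)
    fun e => h1 (mem_fx.1 (e.ge ⟨hv, mem_fx.2 (by
      rw [LinearEquiv.mul_apply, h6 _ (h v hv), h5, one_smul, add_sub_cancel])⟩).2)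
  have h13 := Submodule.finrank_lt_finrank_of_lt h12
  have h14 := Submodule.finrank_mono (inf_le_left : L ⊓ fx (d * g) ≤ L)
  have h15 := ih _ (by omega) (hd.mul hg) (fun l hl => h9 _ (h l hl)) rfl
  rw [O.A_mul hd hg, mul_assoc, O.A_pV hg h, ← mul_assoc, h10, smul_mul_assoc, ← O.A_pV hg h,
    show ((d * g : V ≃ₗ[F] V) : V →ₗ[F] V) = (d : V →ₗ[F] V) * (g : V →ₗ[F] V) from rfl, dt_mul h9 h, h11, map_mul,
    mul_smul] at h15
  exact smul_right_injective _ (chi_ne hχ c h4) h15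

/-- the elements which act trivially on `E^⊥ / E` -/
theorem A_pV_eq (hχ : Gc ψ Q χ) (hE : ItV ω E) (hg : IsV ω g) (h : ∀ v ∈ ω.orthogonal E, g v - v ∈ E) :
    O.A g * O.pV E = χ (dt (g : V →ₗ[F] V) E) • O.pV E := by
  have := O.cx.fX
  have := O.cx.fdV
  have h1 : ∀ v ∈ E, g v ∈ E := fun v hv => by simpa using add_mem (h v (hE.le hv)) hv
  have h2 := O.schur_pV hE (a := O.A g * O.pV E) (by rw [← mul_assoc, ← O.A_pV hg h1, mul_assoc, O.pV_pV hE])
    (by rw [mul_assoc, O.pV_pV hE]) fun x hx => by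
      have h3 : ac g 1 x - x ∈ tp E ⊤ := tp_ind (P := fun x => ac g 1 x - x ∈ tp E ⊤) (by simp)
        (fun v hv w _ => by
          rw [ac_tmul, LinearEquiv.coe_one, id, ← sub_tmul]
          exact tmul_mem (h v hv) Submodule.mem_top)
        (fun x _ y _ h3 h4 => by rw [map_add, add_sub_add_comm]; exact add_mem h3 h4) hx
      rw [mul_assoc, ← O.e_comm_pV hx, ← mul_assoc, O.A_e hg, mul_assoc, O.A_pV hg h1, ← mul_assoc, ← mul_assoc,
        ← add_sub_cancel x (ac g 1 x), ← O.e_add (E := ω.orthogonal E) (fun v hv v' hv' => by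
          rw [O.cx.skew, hv v' hv', neg_zero]) hx h3, mul_assoc (O.e x), O.e_pV hE h3]
  generalize trace ℂ S _ / _ = t at h2
  obtain ⟨L, h3, hL⟩ := O.cx.exists_lag hE
  have h0 := itV_of_lag hL
  have h4 : ∀ v ∈ L, g v - v ∈ E := fun v hv => h v fun u hu => h0 u (h3 hu) v hv
  have h5 : ∀ v ∈ L, g v ∈ L := fun v hv => by simpa using add_mem (h3 (h4 v hv)) hv
  have h6 : O.pV E * O.pV L = O.pV L := av_mul_of fun y hy => O.e_pV h0 (tp_mono h3 le_rfl hy)
  have h7 := congrArg (· * O.pV L) h2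
  simp only [mul_assoc, h6, smul_mul_assoc, O.A_pL hχ hL hg h5] at h7
  rw [h2, ← smul_left_injective ℂ (O.pV_ne L) h7, dt_exact (f' := 1) E.mkQ h5 fun x hx =>
    (Submodule.Quotient.eq E).2 (h4 x hx), dt_one, mul_one, Submodule.ker_mkQ, inf_eq_right.2 h3]

end Osc

/-! ### Gauss sums -/

open Classical in
/-- the quadratic character -/
noncomputable def qc (F : Type) [Field F] [Finite F] : MulChar F ℂ :=
  (@quadraticChar F _ (Fintype.ofFinite F) _).ringHomComp (Int.castRingHom ℂ)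

open Classical in
theorem qc_apply [Finite F] (a : F) : qc F a = ((@quadraticChar F _ (Fintype.ofFinite F) _ a : ℤ) : ℂ) := rfl

theorem qc_sq [Finite F] {a : F} (ha : a ≠ 0) : qc F a * qc F a = 1 := by
  classical
  let := Fintype.ofFinite F
  have h := quadraticChar_sq_one ha
  rw [pow_two] at h
  rw [qc_apply]
  exact_mod_cast h

theorem gc_line [Finite F] (hψ : ψ ≠ 1) (h2 : (2 : F) ≠ 0) : Gc ψ (QuadraticMap.sq (R := F)) (qc F) := by
  classical
  let := Fintype.ofFinite F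
  have h5 : ringChar F ≠ 2 := fun h5 => h2 (by rw [← Nat.cast_ofNat, ← h5, ringChar.Nat.cast_ringChar])
  have h1 : ∀ a : F, a ≠ 0 → G ψ (QuadraticMap.sq (R := F)) a = gaussSum (qc F) (ψ.mulShift a) := fun a ha => by
    have h3 := sum_psi hψ (φ := a • LinearMap.id) (smul_ne_zero ha fun h => one_ne_zero (LinearMap.congr_fun h (1 : F)))
    rw [G, finsum_eq_sum_of_fintype, ← Finset.sum_fiberwise Finset.univ fun x : F => x ^ 2, gaussSum, ← add_zero (∑ _, _ * _),
      ← h3, ← Finset.sum_add_distrib]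
    refine Finset.sum_congr rfl fun y _ => ?_
    rw [Finset.sum_congr rfl (g := fun _ => ψ (a * y)) fun x hx => by
      rw [← (Finset.mem_filter.1 hx).2, QuadraticMap.sq_apply, pow_two], Finset.sum_const, nsmul_eq_mul]
    have h4 := quadraticChar_card_sqrts h5 y
    rw [Set.toFinset_ofPred] at h4
    refine Eq.trans ?_ (add_one_mul (qc F y) (ψ (a * y)))
    rw [qc_apply]
    congr 1
    exact_mod_cast h4
  intro a ha
  rw [h1 a ha, h1 1 one_ne_zero, AddChar.mulShift_one, ← gaussSum_mulShift (qc F) ψ (Units.mk0 a ha), Units.val_mk0,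
    ← mul_assoc, qc_sq ha, one_mul]

/-- **Gauss sums in odd dimension** -/
theorem gc_odd [Finite F] [Finite W] (hψ : ψ ≠ 1) (h2 : (2 : F) ≠ 0) (nd : ∀ w, (∀ w', Q.polarBilin w w' = 0) → w = 0)
    (h : Odd (finrank F W)) : Gc ψ Q (qc F) := fun a ha => by
  have nd1 : ∀ w : F, (∀ w', (QuadraticMap.sq (R := F)).polarBilin w w' = 0) → w = 0 := fun w hw => by
    have h1 := hw 1
    simp only [QuadraticMap.polarBilin_apply_apply, QuadraticMap.polar, QuadraticMap.sq_apply] at h1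
    exact mul_left_cancel₀ h2 (by linear_combination h1)
  have hQ : ∀ w : W × F, Q.prod (QuadraticMap.sq (R := F)) w =
      Q (LinearEquiv.refl F _ w).1 + QuadraticMap.sq (R := F) (LinearEquiv.refl F _ w).2 := fun _ => rfl
  obtain ⟨m, hm⟩ := h
  have h1 : G ψ (Q.prod (QuadraticMap.sq (R := F))) a = G ψ (Q.prod (QuadraticMap.sq (R := F))) 1 := by
    rcases gauss_dich (Q := Q.prod (QuadraticMap.sq (R := F))) hψ (fun v h => Prod.ext
      (nd _ fun u => by simpa only [pol_sum _ hQ, LinearEquiv.refl_apply, map_zero, add_zero] using h (u, 0))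
      (nd1 _ fun u => by simpa only [pol_sum _ hQ, LinearEquiv.refl_apply, map_zero, zero_add] using h (0, u)))
      (m := m + 1) (by rw [finrank_prod, finrank_self, hm]; ring) with h | h
    all_goals exact (h.2 a ha).trans (h.2 1 one_ne_zero).symm
  have h3 : G ψ (QuadraticMap.sq (R := F)) 1 ≠ 0 := fun h => by
    have h1 := gauss_norm hψ nd1 one_ne_zero
    rw [show ∑ᶠ w, ψ (1 * QuadraticMap.sq (R := F) w) = 0 from h, norm_zero, zero_pow two_ne_zero] at h1
    exact Nat.card_pos.ne' (Nat.cast_eq_zero.1 h1.symm)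
  rw [G_sum _ hQ, G_sum _ hQ, gc_line hψ h2 a ha, ← mul_assoc, mul_left_inj' h3] at h1
  rw [← h1, mul_left_comm, qc_sq ha, mul_one]

end Cfsg.Agent.PQ.Wo
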