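import Cfsg.Agent.PQ.Wo.Sum
import Cfsg.Agent.PQ.Wl.Red

/-!
# The Weil kernel, `q` odd : reduction to `E^⊥ / E` and `T^⊥ / T`
-/

set_option autoImplicit false
set_option linter.unusedSectionVars false

namespace Cfsg.Agent.PQ.Wo

open TensorProduct Module Cfsg.Agent.PQ.Wl Cfsg.Agent.PQ.Mk
open LinearMap (BilinForm trace)

variable {F : Type} [Field F] {V W V' W' : Type} [AddCommGroup V] [Module F V] [AddCommGroup W] [Module F W]
  [AddCommGroup V'] [Module F V'] [AddCommGroup W'] [Module F W']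
  {ψ : AddChar F ℂ} {ω : BilinForm F V} {Q : QuadraticForm F W} {γ γ' : ℂ} {ω' : BilinForm F V'} {Q' : QuadraticForm F W'}
  {S : Type} [AddCommGroup S] [Module ℂ S] {χ : MulChar F ℂ}

namespace Osc

variable (O : Osc ψ ω Q γ S) {g : V ≃ₗ[F] V} {h : W ≃ₗ[F] W} {g' : V' ≃ₗ[F] V'} {h' : W' ≃ₗ[F] W'}

section V

variable {E : Submodule F V} {ι : V' →ₗ[F] V} (R : Rd ω ω' E ι) (x' : Cx ψ ω' Q γ)
include R

theorem tr_pV_red : trace ℂ S (O.pV E) = γ ^ finrank F V' := by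
  have := O.cx.fdV
  refine mul_right_cancel₀ (pow_ne_zero (2 * finrank F E) O.cx.γ_ne) ?_
  rw [O.tr_pV, ← pow_add, ← O.cx.dim_orth E, R.dim_orth]
  congr 1
  ring

/-- the model on the image of `pV E` -/
noncomputable def redV : Osc ψ ω' Q γ (LinearMap.range (O.pV E)) where
  cx := x'
  fin := have := O.fin; inferInstance
  ω₀ := O.ω₀.compl₁₂ ι ι
  hω v v' := by rw [← R.map, O.hω]; rfl
  b := O.b
  hb := O.hb
  e y := cp (O.pV E) (O.e (TensorProduct.map ι LinearMap.id y))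
  e_mul y z := by
    rw [cp_mul_l (O.pV_pV R.itV) (O.e_comm_pV (R.memV ⊤ (mem_top y))), O.e_mul, map_smul, map_add, tm_map,
      show ω.compl₁₂ ι ι = ω' from LinearMap.ext₂ R.map]
    rfl
  e_zero := by rw [map_zero, O.e_zero, cp_one (O.pV_pV R.itV)]
  tr_e y hy := by
    have := O.fin
    have := O.cx.fdW
    rw [tr_cp, O.tr_e_pV fun h => hy (R.injV h)]
  dim := by
    have := O.fin
    rw [finrank_cp (O.pV_pV R.itV), O.tr_pV_red R]

theorem redV_D (v : V') (w : W) : (O.redV R x').D v w = cp (O.pV E) (O.D (ι v) w) := rfl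

theorem redV_tau (y : V' ⊗[F] W) :
    (O.redV R x').tau y = cp (O.pV E) (O.tau (TensorProduct.map ι LinearMap.id y)) := by
  rw [tau, tau, map_smul, κ, κ, tm_map]
  rfl

theorem redV_A (hχ : Gc ψ Q χ) (hg : IsV ω g) (hg' : IsV ω' g') (H : Cm E ι g g') :
    cp (O.pV E) (O.A g) = χ (dt (g : V →ₗ[F] V) E) • (O.redV R x').A g' := by
  have h0 := O.pV_pV R.itV
  refine x'.tv_ind (P := fun g' => ∀ g, IsV ω g → Cm E ι g g' →
    cp (O.pV E) (O.A g) = χ (dt (g : V →ₗ[F] V) E) • (O.redV R x').A g') (fun g hg H => ?_)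
    (fun u a k ha hk ih g hg H => ?_) hg' g hg H
  · rw [← cp_right h0, O.A_pV_eq hχ R.itV hg fun v hv => by
      obtain ⟨u, hu⟩ := R.onto v hv
      have h1 := add_mem (H.ind u) (sub_mem ((H.st _).2 hu) hu)
      rwa [map_sub, show g (ι u) - ι ((1 : V' ≃ₗ[F] V') u) + (g v - g (ι u) - (v - ι u)) = g v - v by
        rw [LinearEquiv.coe_one, id]; abel] at h1, map_smul, Osc.A_one, ← cp_one h0, ← cp_right h0 1, one_mul]
  · have h1 : ∀ c, ∀ v ∈ E, O.cx.tv (ι u) c v = v := fun c v hv => by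
      rw [Cx.tv_apply, show ω v (ι u) = 0 from R.mem u v hv, mul_zero, zero_smul, add_zero]
    have h2 : IsV ω (O.cx.tv (ι u) (-a) * g) := (O.cx.isV_tv _ _).mul hg
    have h3 : O.cx.tv (ι u) a * (O.cx.tv (ι u) (-a) * g) = g := by
      rw [← O.cx.tv_symm]
      exact mul_inv_cancel_left (O.cx.tv (ι u) a) g
    have h4 : Cm E ι (O.cx.tv (ι u) (-a) * g) k := ⟨fun v => ⟨fun hv => (H.st v).1 (by
        rw [← h3, LinearEquiv.mul_apply, h1 _ _ hv]; exact hv),
      fun hv => by rw [LinearEquiv.mul_apply, h1 _ _ ((H.st v).2 hv)]; exact (H.st v).2 hv⟩, fun v => by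
        have h5 : O.cx.tv (ι u) a (ι (k v)) = ι ((x'.tv u a * k) v) := by
          rw [LinearEquiv.mul_apply, Cx.tv_apply, Cx.tv_apply, map_add, map_smul, R.map]
        have h6 := H.ind v
        rw [← h1 (-a) _ h6, map_sub, ← h5] at h6
        rwa [show O.cx.tv (ι u) (-a) (O.cx.tv (ι u) a (ι (k v))) = ι (k v) from
          (O.cx.tv (ι u) a).symm_apply_apply _] at h6⟩
    rw [show (O.redV R x').A (x'.tv u a * k) = _ from (O.redV R x').A_tv_mul hk u ha, ← mul_smul_comm,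
      dt_congr (g := (O.cx.tv (ι u) (-a) * g : V ≃ₗ[F] V)) fun v hv => (h1 (-a) _ ((H.st v).2 hv)).symm, ← ih _ h2 h4,
      (O.redV R x').U_map O (cp (O.pV E)) (O.redV_D R x' u) a, cp_mul_r h0 _ (O.A_pV h2 fun v => (h4.st v).2),
      ← O.A_tv_mul h2 _ ha, h3]

theorem redV_C (hh : IsW Q h) : cp (O.pV E) (O.C h) = (O.redV R x').C h := by
  have := O.fin
  have := O.cx.fX
  have h0 := O.pV_pV R.itV
  have h1 := O.C_pV hh R.itV
  obtain ⟨L, h2, hL⟩ := O.cx.exists_lag R.itV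
  have h3 := itV_of_lag hL
  refine Osc.eq_C'' _ (L := L.comap ι) (m := cp (O.pV E) (O.pV L)) (le_antisymm (fun u hu => hL.le fun l hl => ?_)
    fun u hu u' hu' => (R.map _ _).symm.trans (h3 _ hu' _ hu)) hh (Osc.ic_of_D _ hh fun v w => ?_) (fun h4 => ?_) ?_
    fun y hy => ?_
  · obtain ⟨u', h4⟩ := R.onto l fun v hv => h3 v (h2 hv) l hl
    have h5 : ω' u' u = 0 := hu u' (show ι u' ∈ L by simpa using sub_mem hl (h2 h4))
    have h6 : ω (l - ι u') (ι u) = 0 := R.mem u _ h4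
    rwa [map_sub, LinearMap.sub_apply, R.map, h5, sub_zero] at h6
  · rw [redV_D, redV_D, cp_mul_l h0 h1, cp_mul_r h0 _ h1, O.C_D hh]
  · have h5 := congrArg (trace ℂ _) h4
    rw [tr_cp, show O.pV L * O.pV E = O.pV L from mul_av_of fun y hy => O.pV_e h3 (tp_mono h2 le_rfl hy), O.tr_pL hL,
      map_zero] at h5
    exact one_ne_zero h5
  · rw [cp_mul_l h0 h1, O.C_pL hL hh]
  · exact (cp_mul_l h0 (O.e_comm_pV (R.memV ⊤ (mem_top y))) _).trans
      (congrArg _ (O.e_pV h3 (map_mem (fun _ h => h) (fun _ h => h) hy)))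

include x' in
theorem Th_redV (hχ : Gc ψ Q χ) (hg : IsV ω g) (hg' : IsV ω' g') (H : Cm E ι g g') (hh : IsW Q h) :
    χ (dt (g : V →ₗ[F] V) E) * Th ψ ω' Q g' h = trace ℂ S (O.A g * O.C h * O.pV E) := by
  have := O.fin
  rw [← (O.redV R x').tr_eq_Th hg' hh, ← smul_eq_mul, ← map_smul, ← smul_mul_assoc, ← O.redV_A R x' hχ hg hg' H,
    ← O.redV_C R x' hh, cp_mul_r (O.pV_pV R.itV) _ (O.C_pV hh R.itV), tr_cp]

end V

section W

variable {T : Submodule F W} {ι : W' →ₗ[F] W} (R : Rd Q.polarBilin Q'.polarBilin T ι) (hT : ItW Q T)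
  (hι : ∀ w, Q (ι w) = Q' w) (x' : Cx ψ ω Q' γ')
include R hT hι x'

include O in
theorem gam_red : γ ^ finrank F V = (Nat.card T : ℂ) ^ finrank F V * γ' ^ finrank F V := by
  have := O.cx.fdW
  have := x'.fdW
  obtain ⟨L, -, hL⟩ := O.cx.exists_lag (E := ⊥) fun v hv _ _ => by rw [(Submodule.mem_bot F).1 hv, LinearMap.map_zero₂]
  rw [← O.cx.dim_lag hL, pow_mul, pow_mul, pow_mul, ← mul_pow, O.cx.sq, x'.sq, Module.natCard_eq_pow_finrank (K := F) (V := W),
    Module.natCard_eq_pow_finrank (K := F) (V := W'), Module.natCard_eq_pow_finrank (K := F) (V := T), ← O.cx.dim_orthW T,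
    R.dim_orth]
  push_cast
  ring

omit R hι x' in
theorem cp_pL_ne {L : Submodule F V} (hL : ω.orthogonal L = L) : cp (O.pW T) (O.pV L) ≠ 0 := fun h4 => by
  classical
  have := O.fin
  have := O.cx.fX
  have := Fintype.ofFinite (V ⊗[F] W)
  have h3 := itV_of_lag hL
  have h5 := congrArg (trace ℂ _) h4
  rw [tr_cp, pW, tr_e_av, Finset.sum_congr rfl (g := fun y => if y.1 ∈ tp L ⊤ then 1 else 0) fun y _ => by
    split_ifs with h2
    · rw [O.tau_eq_e h3 hT (mem_tp_inf h2 y.2), O.pV_e h3 h2, O.tr_pL hL]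
    · rw [tau, mul_smul_comm, map_smul, LinearMap.trace_mul_comm, O.tr_e_pV h2, smul_zero], Finset.sum_boole,
    map_zero] at h5
  exact mul_ne_zero (inv_ne_zero (card_ne _)) (Nat.cast_ne_zero.2 (Finset.card_pos.2 ⟨0, by simp⟩).ne') h5

/-- the model on the image of `pW T` -/
noncomputable def redW : Osc ψ ω Q' γ' (LinearMap.range (O.pW T)) where
  cx := x'
  fin := have := O.fin; inferInstance
  ω₀ := O.ω₀
  hω := O.hω
  b := O.b.compl₁₂ ι ι
  hb w := (O.hb _).trans (hι w)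
  e y := cp (O.pW T) (O.e (TensorProduct.map LinearMap.id ι y))
  e_mul y z := by
    rw [cp_mul_l (O.pW_pW hT) (O.e_comm_pW (R.memW ⊤ (mem_top y))), O.e_mul, map_smul, map_add, tm_map]
    rfl
  e_zero := by rw [map_zero, O.e_zero, cp_one (O.pW_pW hT)]
  tr_e y hy := by
    have := O.fin
    have := O.cx.fdV
    rw [tr_cp, O.tr_e_pW fun h => hy (R.injW h)]
  dim := by
    have := O.fin
    have := O.cx.fW
    refine mul_right_cancel₀ (pow_ne_zero (finrank F V) (card_ne T)) ?_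
    rw [finrank_cp (O.pW_pW hT), O.tr_pW, mul_comm, ← O.gam_red R hT hι x']

theorem redW_D (v : V) (w : W') : (O.redW R hT hι x').D v w = cp (O.pW T) (O.D v (ι w)) := rfl

theorem redW_A (hg : IsV ω g) : cp (O.pW T) (O.A g) = (O.redW R hT hι x').A g := by
  have h0 := O.pW_pW hT
  refine Osc.eq_A _ (f := fun g => cp (O.pW T) (O.A g)) (by rw [O.A_one, cp_one h0]) (fun u a k ha hk => ?_) hg
  obtain ⟨L, h2, hL⟩ := O.cx.exists_lag (itV_span O.cx u)
  have h3 := h2 (Submodule.mem_span_singleton_self u)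
  have h1 := O.A_pW hT (O.cx.isV_tv u a)
  rw [O.A_tv u ha] at h1
  rw [← (O.redW R hT hι x').eq_U (u := u) ha (a := cp (O.pW T) (O.U u a)) (m := cp (O.pW T) (O.pV L)) (fun v w => by
      rw [redW_D, redW_D, cp_mul_l h0 h1, cp_mul_r h0 _ h1, O.U_D u ha]
      rfl) (O.cp_pL_ne hT hL) (by rw [cp_mul_l h0 h1, O.U_pV (itV_of_lag hL) h3 ha]) fun w =>
      (cp_mul_l h0 (O.e_comm_pW (tmul_mem trivial (R.mem w))) _).trans
        (congrArg _ (O.e_pV (itV_of_lag hL) (tmul_mem h3 trivial))), cp_mul_l h0 h1, ← O.A_tv_mul hk u ha]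
  rfl

theorem redW_C (hh : IsW Q h) (hh' : IsW Q' h') (H : Cm T ι h h') : cp (O.pW T) (O.C h) = (O.redW R hT hι x').C h' := by
  classical
  have := O.fin
  have := O.cx.fX
  have := Fintype.ofFinite (V ⊗[F] W)
  have h0 := O.pW_pW hT
  have h1 := O.C_pW hh fun v => (H.st v).2
  obtain ⟨L, -, hL⟩ := O.cx.exists_lag (E := ⊥) fun v hv _ _ => by rw [(Submodule.mem_bot F).1 hv, LinearMap.map_zero₂]
  have h3 := itV_of_lag hL
  refine Osc.eq_C'' _ hL (m := cp (O.pW T) (O.pV L)) hh' (Osc.ic_of_D _ hh' fun v w => ?_) (O.cp_pL_ne hT hL) ?_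
    fun y hy => ?_
  · have h2 := O.tau_pW hT (tmul_mem (E := ⊤) (v := v) trivial (H.ind w))
    rw [O.tau_tmul _ (hT _ (H.ind w))] at h2
    rw [redW_D, redW_D, cp_mul_l h0 h1, cp_mul_r h0 _ h1, O.C_D hh, ← add_sub_cancel (ι (h' w)) (h (ι w)), ← D_addW,
      ← cp_right h0, mul_assoc, h1, mul_assoc, ← mul_assoc _ (O.pW T), h2, ← h1, ← mul_assoc, cp_right h0]
  · rw [cp_mul_l h0 h1, O.C_pL hL hh]
  · exact (cp_mul_l h0 (O.e_comm_pW (R.memW ⊤ (mem_top y))) _).trans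
      (congrArg _ (O.e_pV h3 (map_mem (fun _ h => h) (fun _ _ => Submodule.mem_top) hy)))

theorem Th_redW (hg : IsV ω g) (hh : IsW Q h) (hh' : IsW Q' h') (H : Cm T ι h h') :
    Th ψ ω Q' g h' = trace ℂ S (O.A g * O.C h * O.pW T) := by
  have := O.fin
  rw [← (O.redW R hT hι x').tr_eq_Th hg hh', ← O.redW_A R hT hι x' hg, ← O.redW_C R hT hι x' hh hh' H,
    cp_mul_l (O.pW_pW hT) (O.A_pW hT hg), tr_cp]

end W

/-- the average of `tau` over `E^⊥ ⊗ T` -/
noncomputable def qV (E : Submodule F V) (T : Submodule F W) : End ℂ S := av O.tau (tp (ω.orthogonal E) T)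

/-- the average of `e` over `E ⊗ T^⊥` -/
noncomputable def qW (E : Submodule F V) (T : Submodule F W) : End ℂ S := av O.e (tp E (ow Q T))

section VW

variable {E : Submodule F V} {T : Submodule F W} {x : V ⊗[F] W}

theorem tau_comm_pV (hx : x ∈ tp (ω.orthogonal E) ⊤) : O.tau x * O.pV E = O.pV E * O.tau x := by
  rw [tau, smul_mul_assoc, mul_smul_comm, O.e_comm_pV hx]

theorem tau_qV (hT : ItW Q T) (hx : x ∈ tp (ω.orthogonal E) T) : O.tau x * O.qV E T = O.qV E T :=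
  have := O.cx.fX
  s_mul_av (fun _ hx _ hy => O.tau_hom hT (tp_mono le_top le_rfl hx) (tp_mono le_top le_rfl hy)) hx

theorem e_qW (hE : ItV ω E) (hx : x ∈ tp E (ow Q T)) : O.e x * O.qW E T = O.qW E T :=
  have := O.cx.fX
  s_mul_av (fun _ hx _ hy => O.e_add hE (tp_mono le_rfl le_top hx) (tp_mono le_rfl le_top hy)) hx

theorem pV_qV (E : Submodule F V) (T : Submodule F W) : O.pV E * O.qV E T = O.qV E T * O.pV E :=
  have := O.cx.fX
  mul_av (Equiv.refl _) fun y => (O.tau_comm_pV (tp_mono le_rfl le_top y.2)).symm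

theorem pW_qW (E : Submodule F V) (T : Submodule F W) : O.pW T * O.qW E T = O.qW E T * O.pW T :=
  have := O.cx.fX
  mul_av (Equiv.refl _) fun y => (O.e_comm_pW (tp_mono le_top le_rfl y.2)).symm

variable {ι : V' →ₗ[F] V} (R : Rd ω ω' E ι) {ι' : W' →ₗ[F] W} (R' : Rd Q.polarBilin Q'.polarBilin T ι') (hT : ItW Q T)
  (hι : ∀ w, Q (ι' w) = Q' w) (x'' : Cx ψ ω' Q' γ') (hg : IsV ω g) (hg' : IsV ω' g') (H : Cm E ι g g') (hh : IsW Q h)
  (hh' : IsW Q' h') (H' : Cm T ι' h h')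
include R R' hT hι x'' hg hg' H hh hh' H'

theorem Th_redVW (hχ : Gc ψ Q χ) :
    χ (dt (g : V →ₗ[F] V) E) * Th ψ ω' Q' g' h' = trace ℂ S (O.A g * O.C h * O.pV E * O.qV E T) := by
  have := O.fin
  have := O.cx.fX
  have x' : Cx ψ ω' Q γ := { O.cx with fV := x''.fV, alt := x''.alt, ndV := x''.ndV }
  have := x'.fX
  have h0 := O.pV_pV R.itV
  have h1 : (O.redV R x').pW T = cp (O.pV E) (O.qV E T) := by
    refine (mul_av_of (s := fun y => cp (O.pV E) (O.tau y)) (Y := tp (ω.orthogonal E) T) fun y hy => ?_).symm.trans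
      ((congrArg _ (map_av _ _ _).symm).trans (av_mul_of fun y hy => ?_))
    · obtain ⟨y', hy', z, hz, e⟩ := R.decV hy
      rw [e]
      clear hy e
      rename' y' => y, hy' => hy
      rw [← O.tau_hom hT (tp_mono le_top le_rfl (R.memV T hy)) (tp_mono le_top le_rfl hz), ← cp_right h0, mul_assoc,
        O.tau_eq_e R.itV hT hz, O.e_pV R.itV (tp_mono le_rfl le_top hz), cp_right h0, ← O.redV_tau R x',
        Osc.pW_tau _ hT hy]
    · rw [redV_tau, cp_mul_l h0 (O.tau_comm_pV (R.memV ⊤ (mem_top y))), ← qV, O.tau_qV hT (R.memV T hy)]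
  rw [(O.redV R x').Th_redW R' hT hι x'' hg' hh hh' H', ← smul_eq_mul, ← map_smul, ← smul_mul_assoc, ← smul_mul_assoc,
    ← O.redV_A R x' hχ hg hg' H, ← O.redV_C R x' hh, h1,
    cp_mul_r h0 _ (O.C_pV hh R.itV), cp_mul_r h0 _ (O.pV_qV E T).symm, tr_cp, mul_assoc _ (O.qV E T), ← pV_qV,
    ← mul_assoc]

theorem Th_redWV (hχ : Gc ψ Q' χ) :
    χ (dt (g : V →ₗ[F] V) E) * Th ψ ω' Q' g' h' = trace ℂ S (O.A g * O.C h * O.pW T * O.qW E T) := by
  have := O.fin
  have := O.cx.fX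
  have x' : Cx ψ ω Q' γ' := { x'' with fV := O.cx.fV, alt := O.cx.alt, ndV := O.cx.ndV }
  have := x'.fX
  have h0 := O.pW_pW hT
  have h1 : (O.redW R' hT hι x').pV E = cp (O.pW T) (O.qW E T) := by
    refine (mul_av_of (s := fun y => cp (O.pW T) (O.e y)) (Y := tp E (ow Q T)) fun y hy => ?_).symm.trans
      ((congrArg _ (map_av _ _ _).symm).trans (av_mul_of fun y hy => ?_))
    · obtain ⟨y', hy', z, hz, e⟩ := R'.decW hy
      rw [e]
      clear hy e
      rename' y' => y, hy' => hy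
      rw [← O.e_add R.itV (tp_mono le_rfl le_top (R'.memW E hy)) (tp_mono le_rfl le_top hz), ← cp_right h0, mul_assoc,
        ← O.tau_eq_e R.itV hT hz, O.tau_pW hT (tp_mono le_top le_rfl hz), cp_right h0]
      exact (O.redW R' hT hι x').pV_e R.itV hy
    · exact (cp_mul_l h0 (O.e_comm_pW (R'.memW ⊤ (mem_top y))) _).trans (congrArg _ (O.e_qW R.itV (R'.memW E hy)))
  rw [(O.redW R' hT hι x').Th_redV R x'' hχ hg hg' H hh', ← O.redW_A R' hT hι x' hg, ← O.redW_C R' hT hι x' hh hh' H', h1,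
    cp_mul_l h0 (O.A_pW hT hg), cp_mul_r h0 _ (O.pW_qW E T).symm, tr_cp, mul_assoc _ (O.qW E T), ← pW_qW, ← mul_assoc]

end VW

end Osc

end Cfsg.Agent.PQ.Wo
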