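import Cfsg.Agent.PQ.Wo.B

/-!
# The Weil kernel, `q` odd, `dim W` arbitrary
-/

set_option autoImplicit false
set_option linter.unusedSectionVars false

namespace Cfsg.Agent.PQ.Wo

open TensorProduct Module Cfsg.Agent.PQ.Wl
open LinearMap (BilinForm trace)

variable {F : Type} [Field F] {V W V' W' : Type} [AddCommGroup V] [Module F V] [AddCommGroup W] [Module F W]
  [AddCommGroup V'] [Module F V'] [AddCommGroup W'] [Module F W']
  {ψ : AddChar F ℂ} {ω : BilinForm F V} {Q : QuadraticForm F W} {γ γ' : ℂ} {ω' : BilinForm F V'} {Q' : QuadraticForm F W'}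
  {S S' : Type} [AddCommGroup S] [Module ℂ S] [AddCommGroup S'] [Module ℂ S']

section congr

variable (i : V ≃ₗ[F] V') (j : W ≃ₗ[F] W') {c : F} (hc : c ≠ 0) (hi : ∀ v v', ω v v' = c * ω' (i v) (i v'))
  (hj : ∀ w, Q' (j w) = c * Q w)
include hc hi hj

theorem Cx.congr (x : Cx ψ ω Q γ) : Cx ψ ω' Q' γ where
  fF := x.fF
  fV := have := x.fV; Finite.of_equiv _ i.toEquiv
  fW := have := x.fW; Finite.of_equiv _ j.toEquiv
  ψne := x.ψne
  alt v := by
    obtain ⟨v, rfl⟩ := i.surjective v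
    exact (mul_eq_zero.1 ((hi v v).symm.trans (x.alt v))).resolve_left hc
  ndV v h := by
    obtain ⟨v, rfl⟩ := i.surjective v
    rw [x.ndV v fun v' => by rw [hi, h, mul_zero], map_zero]
  ndW w h := by
    obtain ⟨w, rfl⟩ := j.surjective w
    rw [x.ndW w fun w' => (mul_eq_zero.1 ((pol_of (j := j.toLinearMap) hj w w').symm.trans (h _))).resolve_left hc,
      map_zero]
  two := x.two
  sq := x.sq.trans (by rw [Nat.card_congr j.toEquiv])

/-- transport of a model; the half of the polar form can be prescribed -/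
noncomputable def Osc.pull (O : Osc ψ ω' Q' γ' S) (x : Cx ψ ω Q γ) (b : BilinForm F W) (hb : ∀ w, b w w = Q w) :
    Osc ψ ω Q γ S where
  cx := x
  fin := O.fin
  ω₀ := c • O.ω₀.compl₁₂ i.toLinearMap i.toLinearMap
  hω v v' := by rw [hi, O.hω, mul_sub]; rfl
  b := b
  hb := hb
  e y := ψ (-tm (O.ω₀.compl₁₂ i.toLinearMap i.toLinearMap) (c • b - O.b.compl₁₂ j.toLinearMap j.toLinearMap) y y) •
    O.e (TensorProduct.congr i j y)
  e_mul y z := by
    generalize hq : tm (O.ω₀.compl₁₂ i.toLinearMap i.toLinearMap) (c • b - O.b.compl₁₂ j.toLinearMap j.toLinearMap) = q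
    have h : tm ω b y z = tm ω' O.b (TensorProduct.congr i j y) (TensorProduct.congr i j z) + q y z + q z y :=
      LinearMap.congr_fun₂ (bil_ext (b := (tm ω' O.b).compl₁₂ (TensorProduct.congr i j).toLinearMap
        (TensorProduct.congr i j).toLinearMap + q + LinearMap.flip q) fun v w v' w' => by
          have h1 := pol_of (j := j.toLinearMap) hj w w'
          have h2 : Q.polarBilin w w' = b w w' + b w' w := by
            simp only [QuadraticMap.polarBilin_apply_apply, QuadraticMap.polar, ← hb, map_add, LinearMap.add_apply]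
            ring
          rw [O.hb', h2] at h1
          simp only [← hq, tm_tmul, LinearMap.add_apply, LinearMap.flip_apply, LinearMap.compl₁₂_apply, congr_tmul,
            LinearEquiv.coe_coe, LinearMap.sub_apply, LinearMap.smul_apply, smul_eq_mul, hi, O.hω] at h1 ⊢
          linear_combination O.ω₀ (i v') (i v) * h1) y z
    rw [smul_mul_smul_comm, O.e_mul, smul_smul, smul_smul, h]
    simp only [← AddChar.map_add_eq_mul, map_add, LinearMap.add_apply]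
    congr 2
    ring
  e_zero := by simp [O.e_zero]
  tr_e y hy := by rw [map_smul, O.tr_e _ (by simpa using hy), smul_zero]
  dim := by rw [O.dim, O.cx.pw, x.pw, i.finrank_eq, Nat.card_congr j.toEquiv]

omit hc in
theorem Osc.pull_D (O : Osc ψ ω' Q' γ' S) (x : Cx ψ ω Q γ) (b : BilinForm F W) (hb : ∀ w, b w w = Q w) (v : V) (w : W) :
    (O.pull i j hi hj x b hb).D v w = O.D (i v) (j w) := by
  simp [Osc.D, Osc.pull, hb, O.hb, hj]


omit hi in
theorem G_congr (a : F) : G ψ Q' (a * c)⁻¹ = G ψ Q a⁻¹ := by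
  rw [G, G, ← finsum_comp_equiv j.toEquiv]
  exact finsum_congr fun w => by rw [LinearEquiv.coe_toEquiv, hj, mul_inv, mul_assoc, inv_mul_cancel_left₀ hc]

theorem Osc.pull_U (O : Osc ψ ω' Q' γ' S) (x : Cx ψ ω Q γ) (b : BilinForm F W) (hb : ∀ w, b w w = Q w) (u : V) (a : F) :
    (O.pull i j hi hj x b hb).U u a = O.U (i u) (a * c) := by
  rw [Osc.U, Osc.U, G_congr j hc hj, ← finsum_comp_equiv j.toEquiv]
  exact congrArg _ (finsum_congr fun w => by
    rw [Osc.pull_D, LinearEquiv.coe_toEquiv, hj, mul_inv, mul_assoc, inv_mul_cancel_left₀ hc])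

theorem Osc.pull_A (O : Osc ψ ω' Q' γ' S) (x : Cx ψ ω Q γ) (b : BilinForm F W) (hb : ∀ w, b w w = Q w) {g : V ≃ₗ[F] V}
    (hg : IsV ω g) {g' : V' ≃ₗ[F] V'} (H : ∀ v, g' (i v) = i (g v)) : (O.pull i j hi hj x b hb).A g = O.A g' := by
  obtain rfl : g' = (i.symm.trans g).trans i := LinearEquiv.ext fun v => by
    obtain ⟨v, rfl⟩ := i.surjective v
    simp [H]
  refine (Osc.eq_A _ (f := fun g => O.A ((i.symm.trans g).trans i)) ?_ (fun u a g ha hg => ?_) hg).symm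
  · exact (congrArg O.A (LinearEquiv.ext fun v => i.apply_symm_apply v : (i.symm.trans (1 : V ≃ₗ[F] V)).trans i = 1)).trans
      O.A_one
  · rw [Osc.pull_U i j hc, ← O.A_tv_mul (hg.congr i hc hi fun v => by simp) _ (mul_ne_zero ha hc)]
    exact congrArg _ (LinearEquiv.ext fun v => by simp [Cx.tv_apply, hi, mul_assoc])

end congr

namespace Osc

variable (O : Osc ψ ω Q γ S)

theorem ext_e {M : Type} [AddCommGroup M] [Module ℂ M] {f f' : End ℂ S →ₗ[ℂ] M} (h : ∀ x, f (O.e x) = f' (O.e x)) :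
    f = f' := LinearMap.ext_on O.span_e (by rintro _ ⟨x, rfl⟩; exact h x)

theorem exists_lift {M : Type} [AddCommGroup M] [Module ℂ M] (f : V ⊗[F] W → M) :
    ∃ Φ : End ℂ S →ₗ[ℂ] M, ∀ x, Φ (O.e x) = f x := by
  have := O.cx.fX
  have := Fintype.ofFinite (V ⊗[F] W)
  refine ⟨(γ ^ finrank F V)⁻¹ • ∑ y, (trace ℂ S ∘ₗ LinearMap.mulLeft ℂ (O.ei y)).smulRight (f y), fun x => ?_⟩
  simp only [LinearMap.smul_apply, LinearMap.sum_apply, LinearMap.smulRight_apply, LinearMap.comp_apply,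
    LinearMap.mulLeft_apply]
  rw [Finset.sum_eq_single x (fun y _ hy => ?_) (by simp), ei_e, O.tr_one, inv_smul_smul₀ (pow_ne_zero _ O.cx.γ_ne)]
  rw [ei, smul_mul_assoc, O.e_mul, map_smul, map_smul, O.tr_e _ (by rwa [Ne, neg_add_eq_zero])]
  simp

theorem tr_same (O' : Osc ψ ω Q γ' S') (hb : O'.b = O.b) {g : V ≃ₗ[F] V} {h : W ≃ₗ[F] W} (hg : IsV ω g) (hh : IsW Q h) :
    trace ℂ S (O.A g * O.C h) = trace ℂ S' (O'.A g * O'.C h) := by
  have := O.cx.fW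
  have := Fintype.ofFinite W
  obtain ⟨Φ, hΦ⟩ := O.exists_lift O'.e
  have h1 : ∀ a b, Φ (a * b) = Φ a * Φ b := fun a b => LinearMap.congr_fun₂
    (O.ext_e (f := (LinearMap.mul ℂ _).compr₂ Φ) (f' := (LinearMap.mul ℂ _).compl₁₂ Φ Φ) fun x => O.ext_e fun y => by
      simp only [LinearMap.compr₂_apply, LinearMap.mul_apply', LinearMap.compl₁₂_apply, O.e_mul, map_smul, hΦ, O'.e_mul,
        hb]) a b
  have h2 : ∀ a, trace ℂ S' (Φ a) = trace ℂ S a := LinearMap.congr_fun (O.ext_e (f := trace ℂ S' ∘ₗ Φ) fun x => by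
    rw [LinearMap.comp_apply, hΦ]
    rcases eq_or_ne x 0 with rfl | hx
    · rw [O.e_zero, O'.e_zero, O.tr_one, O'.tr_one, O.cx.pw, O'.cx.pw]
    · rw [O.tr_e x hx, O'.tr_e x hx])
  have h3 : ∀ v w, O'.D v w = Φ (O.D v w) := fun v w => (hΦ _).symm
  rw [← h2, h1, O'.eq_A (f := fun g => Φ (O.A g)) (by rw [O.A_one, ← O.e_zero, hΦ, O'.e_zero]) (fun u a g ha hg => by
      refine (congrArg Φ (O.A_tv_mul hg u ha)).trans ?_
      rw [h1, U, U, finsum_eq_sum_of_fintype, finsum_eq_sum_of_fintype, map_smul, map_sum]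
      simp only [map_smul, h3]) hg,
    O'.eq_C hh (O'.ic_of_D hh fun v w => by rw [h3, h3, ← h1, ← h1, O.C_D hh]) ((h2 _).trans (O.tr_C hh))]

theorem tr_congr (O' : Osc ψ ω' Q' γ' S') (i : V ≃ₗ[F] V') (j : W ≃ₗ[F] W') {c : F} (hc : c ≠ 0)
    (hi : ∀ v v', ω v v' = c * ω' (i v) (i v')) (hj : ∀ w, Q' (j w) = c * Q w) {g : V ≃ₗ[F] V} {h : W ≃ₗ[F] W}
    (hg : IsV ω g) (hh : IsW Q h) {g' : V' ≃ₗ[F] V'} {h' : W' ≃ₗ[F] W'} (H : ∀ v, g' (i v) = i (g v))
    (H' : ∀ w, h' (j w) = j (h w)) : trace ℂ S (O.A g * O.C h) = trace ℂ S' (O'.A g' * O'.C h') := by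
  have hh' := hh.congr j hj H'
  rw [O.tr_same (O'.pull i j hi hj O.cx O.b O.hb) rfl hg hh, O'.pull_A i j hc hi hj _ _ _ hg H,
    ← Osc.eq_C _ hh (a := O'.C h') (Osc.ic_of_D _ hh fun v w => by rw [pull_D, pull_D, O'.C_D hh', H'])
      (by rw [O'.tr_C hh', cW, cW, i.finrank_eq, Nat.card_congr (fxEq j H').toEquiv])]

theorem toWl_C (x : Wl.Cx ψ ω Q γ') {h : W ≃ₗ[F] W} (hh : IsW Q h) : (O.toWl x).C h = O.C h :=
  (Wl.Osc.eq_C _ hh (Wl.Osc.ic_of_D _ hh (O.C_D hh)) (O.tr_C hh)).symm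

end Osc

open Classical in
/-- **the Weil kernel** -/
noncomputable def Th (ψ : AddChar F ℂ) (ω : BilinForm F V) (Q : QuadraticForm F W) (g : V ≃ₗ[F] V) (h : W ≃ₗ[F] W) : ℂ :=
  if c : ∃ γ, Cx ψ ω Q γ then
    trace ℂ _ (c.choose_spec.exists_osc.choose_spec.some.A g * c.choose_spec.exists_osc.choose_spec.some.C h) else 0

variable {g g₀ : V ≃ₗ[F] V} {h h₀ : W ≃ₗ[F] W}

/-- **independence of the model** -/
theorem Osc.tr_eq_Th (O : Osc ψ ω Q γ S) (hg : IsV ω g) (hh : IsW Q h) : trace ℂ S (O.A g * O.C h) = Th ψ ω Q g h := by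
  rw [Th, dif_pos ⟨γ, O.cx⟩]
  exact O.tr_congr _ (LinearEquiv.refl F V) (LinearEquiv.refl F W) one_ne_zero (fun _ _ => (one_mul _).symm)
    (fun _ => (one_mul _).symm) hg hh (fun _ => rfl) fun _ => rfl

/-- **comparison with the kernel of `PQ.Wl`** -/
theorem Th_even (x : Wl.Cx ψ ω Q γ) (h2 : (2 : F) ≠ 0) (hg : IsV ω g) (hh : IsW Q h) : Th ψ ω Q g h = Wl.Th ψ ω Q g h := by
  obtain ⟨U, ⟨O⟩⟩ := (Cx.ofWl x h2).exists_osc
  rw [← O.tr_eq_Th hg hh, ← (O.toWl x).tr_eq_Th hg hh, O.toWl_A x hg, O.toWl_C x hh]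

/-- **invariance under isometries and similitudes** -/
theorem Th_congr (x : Cx ψ ω Q γ) (i : V ≃ₗ[F] V') (j : W ≃ₗ[F] W') {c : F} (hc : c ≠ 0)
    (hi : ∀ v v', ω v v' = c * ω' (i v) (i v')) (hj : ∀ w, Q' (j w) = c * Q w) (hg : IsV ω g) (hh : IsW Q h)
    {g' : V' ≃ₗ[F] V'} {h' : W' ≃ₗ[F] W'} (H : ∀ v, g' (i v) = i (g v)) (H' : ∀ w, h' (j w) = j (h w)) :
    Th ψ ω Q g h = Th ψ ω' Q' g' h' := by
  obtain ⟨U, ⟨O⟩⟩ := x.exists_osc
  obtain ⟨U', ⟨O'⟩⟩ := (x.congr i j hc hi hj).exists_osc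
  rw [← O.tr_eq_Th hg hh, ← O'.tr_eq_Th (hg.congr i hc hi H) (hh.congr j hj H'), O.tr_congr O' i j hc hi hj hg hh H H']

theorem Th_one_left (x : Cx ψ ω Q γ) (hh : IsW Q h) : Th ψ ω Q 1 h = Osc.cW F V h := by
  obtain ⟨U, ⟨O⟩⟩ := x.exists_osc
  rw [← O.tr_eq_Th (IsV.one ω) hh, O.A_one, one_mul, O.tr_C hh]

/-- class function -/
theorem Th_conj (x : Cx ψ ω Q γ) (hg : IsV ω g) (hh : IsW Q h) (hg₀ : IsV ω g₀) (hh₀ : IsW Q h₀) :
    Th ψ ω Q (g₀ * g * g₀⁻¹) (h₀ * h * h₀⁻¹) = Th ψ ω Q g h :=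
  (Th_congr x g₀ h₀ one_ne_zero (fun v v' => by rw [one_mul, hg₀]) (fun w => by rw [one_mul, hh₀]) hg hh
    (fun v => congrArg (fun v => g₀ (g v)) (g₀.symm_apply_apply v))
    fun w => congrArg (fun w => h₀ (h w)) (h₀.symm_apply_apply w)).symm

/-- the representation of a group which acts on both spaces -/
noncomputable def Osc.rep (O : Osc ψ ω Q γ S) {Γ : Type} [Group Γ] (a : Γ →* V ≃ₗ[F] V) (c : Γ →* W ≃ₗ[F] W)
    (ha : ∀ y, IsV ω (a y)) (hc : ∀ y, IsW Q (c y)) : Representation ℂ Γ S where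
  toFun y := O.A (a y) * O.C (c y)
  map_one' := by rw [map_one, map_one, O.A_one, O.C_one, mul_one]
  map_mul' y z := by
    rw [map_mul, map_mul, O.A_mul (ha y) (ha z), O.C_mul (hc y) (hc z), mul_assoc, mul_assoc, ← mul_assoc (O.A (a z)),
      O.A_comm_C (ha z) (hc y), mul_assoc]

theorem isCharacter_Th (x : Cx ψ ω Q γ) {Γ : Type} [Group Γ] (a : Γ →* V ≃ₗ[F] V) (c : Γ →* W ≃ₗ[F] W)
    (ha : ∀ y, IsV ω (a y)) (hc : ∀ y, IsW Q (c y)) : IsCharacter Γ fun y => Th ψ ω Q (a y) (c y) := by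
  obtain ⟨U, ⟨O⟩⟩ := x.exists_osc
  have := O.fin
  rw [← funext fun y => O.tr_eq_Th (ha y) (hc y)]
  exact Characters.Core.isCharacter_of_rep (O.rep a c ha hc)

theorem Th_inv (x : Cx ψ ω Q γ) (hg : IsV ω g) (hh : IsW Q h) :
    Th ψ ω Q g⁻¹ h⁻¹ = starRingEnd ℂ (Th ψ ω Q g h) := by
  obtain ⟨U, ⟨O⟩⟩ := x.exists_osc
  have := O.fin
  have := x.fV
  have := x.fW
  have : Finite (V ≃ₗ[F] V) := Finite.of_injective _ (DFunLike.coe_injective (F := V ≃ₗ[F] V))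
  have : Finite (W ≃ₗ[F] W) := Finite.of_injective _ (DFunLike.coe_injective (F := W ≃ₗ[F] W))
  let Γ : Subgroup ((V ≃ₗ[F] V) × (W ≃ₗ[F] W)) :=
    { carrier := {y | IsV ω y.1 ∧ IsW Q y.2}
      one_mem' := ⟨IsV.one ω, IsW.one Q⟩
      mul_mem' := fun h h' => ⟨h.1.mul h'.1, h.2.mul h'.2⟩
      inv_mem' := fun h => ⟨h.1.inv, h.2.inv⟩ }
  rw [← O.tr_eq_Th hg hh, ← O.tr_eq_Th hg.inv hh.inv]
  exact S0191.character_inv (O.rep ((MonoidHom.fst _ _).comp Γ.subtype) ((MonoidHom.snd _ _).comp Γ.subtype)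
    (fun y => y.2.1) fun y => y.2.2) ⟨(g, h), hg, hh⟩

/-! ### negatives -/

theorem Cx.neg (x : Cx ψ ω Q γ) : Cx ψ ω (-Q) γ :=
  { x with ndW := fun w h => x.ndW w fun w' => neg_eq_zero.1 ((pol_neg w w').symm.trans (h w')) }

theorem Cx.negV (x : Cx ψ ω Q γ) : Cx ψ (-ω) Q γ :=
  { x with
    alt := fun v => neg_eq_zero.2 (x.alt v)
    ndV := fun v h => x.ndV v fun v' => neg_eq_zero.1 (h v') }

/-- the dual model -/
noncomputable def Osc.dual (O : Osc ψ ω Q γ S) : Osc ψ ω (-Q) γ (Module.Dual ℂ S) where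
  cx := O.cx.neg
  fin := have := O.fin; inferInstance
  ω₀ := O.ω₀
  hω := O.hω
  b := -O.b
  hb w := congrArg Neg.neg (O.hb w)
  e x := Module.Dual.transpose (R := ℂ) (O.ei x)
  e_mul x y := by
    have h : tm ω (-O.b) x y = -tm ω O.b x y :=
      LinearMap.congr_fun₂ (bil_ext (b := -tm ω O.b) fun _ _ _ _ => by simp) x y
    rw [Module.End.mul_eq_comp, ← Module.Dual.transpose_comp, ← map_smul, ← Module.End.mul_eq_comp, h, Osc.ei, Osc.ei,
      Osc.ei, smul_mul_smul_comm, O.e_mul, smul_smul, smul_smul, neg_add_rev]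
    simp only [← AddChar.map_add_eq_mul, map_add, map_neg, LinearMap.add_apply, LinearMap.neg_apply]
    congr 3
    ring
  e_zero := by
    simp only [Osc.ei, map_zero, AddChar.map_zero_eq_one, neg_zero, O.e_zero, one_smul]
    rfl
  tr_e x hx := by
    have := O.fin
    rw [LinearMap.trace_transpose', Osc.ei, map_smul, O.tr_e _ (neg_ne_zero.2 hx), smul_zero]
  dim := by rw [Subspace.dual_finrank_eq, O.dim]

theorem Osc.dual_D (O : Osc ψ ω Q γ S) (v : V) (w : W) : O.dual.D v w = Module.Dual.transpose (R := ℂ) (O.D (-v) w) := by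
  simp [Osc.D, Osc.dual, Osc.ei, O.cx.alt, neg_tmul]

theorem Osc.dual_U (O : Osc ψ ω Q γ S) (u : V) (a : F) : O.dual.U u a = Module.Dual.transpose (R := ℂ) (O.U u (-a)) := by
  have := O.cx.fW
  have := Fintype.ofFinite W
  rw [Osc.U, Osc.U, finsum_eq_sum_of_fintype, finsum_eq_sum_of_fintype, map_smul, map_sum, ← Equiv.sum_comp (Equiv.neg W)]
  congr 1
  · simp only [G, neg_apply, inv_neg, mul_neg, neg_mul]
  · refine Finset.sum_congr rfl fun w _ => ?_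
    rw [map_smul, O.dual_D, Equiv.neg_apply, QuadraticMap.map_neg, neg_apply, inv_neg, mul_neg, neg_mul, Osc.D, Osc.D,
      neg_tmul, tmul_neg, neg_neg]

theorem Th_neg' (x : Cx ψ ω Q γ) (hg : IsV ω g) (hh : IsW Q h) : Th ψ ω (-Q) g h = Th ψ ω Q g⁻¹ h⁻¹ := by
  obtain ⟨U, ⟨O⟩⟩ := x.exists_osc
  have := O.fin
  have h1 : ∀ a b : End ℂ U, Module.Dual.transpose (R := ℂ) a * Module.Dual.transpose (R := ℂ) b =
      Module.Dual.transpose (R := ℂ) (b * a) := fun _ _ => rfl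
  rw [← O.dual.tr_eq_Th hg hh.neg, ← O.tr_eq_Th hg.inv hh.inv,
    ← O.dual.eq_A (f := fun g => Module.Dual.transpose (R := ℂ) (O.A g⁻¹)) (by rw [inv_one, O.A_one]; rfl)
      (fun u a g ha hg => by
        rw [O.dual_U, h1, mul_inv_rev, ← O.A_tv u (neg_ne_zero.2 ha), ← O.A_mul hg.inv (x.isV_tv _ _), ← x.tv_symm]
        rfl) hg,
    ← O.dual.eq_C hh.neg (a := Module.Dual.transpose (R := ℂ) (O.C h⁻¹)) (O.dual.ic_of_D hh.neg fun v w => by
      rw [O.dual_D, O.dual_D, h1, h1, O.C_D hh.inv]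
      exact congrArg (fun w => Module.Dual.transpose (R := ℂ) (O.D (-v) w * _)) (h.symm_apply_apply w).symm)
      (by rw [LinearMap.trace_transpose', O.tr_C hh.inv, Osc.cW, Osc.cW, fx_inv]),
    h1, LinearMap.trace_transpose', LinearMap.trace_mul_comm]

theorem Th_neg (x : Cx ψ ω Q γ) (hg : IsV ω g) (hh : IsW Q h) : Th ψ ω (-Q) g h = starRingEnd ℂ (Th ψ ω Q g h) := by
  rw [Th_neg' x hg hh, Th_inv x hg hh]

theorem Th_negV (x : Cx ψ ω Q γ) (hg : IsV ω g) (hh : IsW Q h) : Th ψ (-ω) Q g h = starRingEnd ℂ (Th ψ ω Q g h) := by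
  rw [← Th_neg x hg hh]
  exact Th_congr x.negV (LinearEquiv.refl F V) (LinearEquiv.refl F W) (c := -1) (neg_ne_zero.2 one_ne_zero)
    (fun _ _ => by simp) (fun _ => by simp) hg.neg hh (fun _ => rfl) fun _ => rfl

end Cfsg.Agent.PQ.Wo
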